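import Cfsg.Agent.H64.Twist.Params
import Cfsg.Agent.H64.Chev.AutOut
import Cfsg.Agent.H46.TwistOrder

/-!
# The outer automorphism group of a twisted group
-/

set_option autoImplicit false

namespace Cfsg.Agent.H64.Twist

open Cfsg.Lie Cfsg.Agent.H46 Cfsg.Agent.H47 Cfsg.Agent.H64.Opp Cfsg.Agent.H64.AutChev
open scoped Matrix MatrixGroups

variable {D : ChevalleyDatum} {T : GraphData D} {G : Good D} {F : Type*} [Field F]
variable (h : T.Ok G) (C : CoxData G) (f : F →+* F)

/-- Conjugation by a diagonal matrix with given values on the fundamental roots. -/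
noncomputable def dEq (G : Good D) (c : Fin D.rank → Fˣ) : GL D.Idx F ≃* GL D.Idx F :=
  MulAut.conj (diagUnit (D := D) (charOf G c))

/-- A field automorphism on the linear group. -/
noncomputable def sEq (D : ChevalleyDatum) (σ : F ≃+* F) : GL D.Idx F ≃* GL D.Idx F :=
  Units.mapEquiv (σ.mapMatrix (m := D.Idx)).toMulEquiv

theorem dEq_xg (hdec : Chev.chkDec D = true) (c : Fin D.rank → Fˣ) {r : ℕ} (hr : r < D.nroots) (t : F) :
    dEq G c (G.xg r t) = G.xg r ((charOf G c r : F) * t) :=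
  diagUnit_conj_xg G hdec _ (isRootCharacter_charOf G c) hr t

theorem sEq_xg (σ : F ≃+* F) (r : ℕ) (t : F) : sEq D σ (G.xg r t) = G.xg r (σ t) := by
  apply Units.ext
  show ((G.xg r t : GL D.Idx F) : Matrix D.Idx D.Idx F).map σ = _
  rw [G.coe_xg, G.coe_xg]
  exact Cfsg.Agent.H47.x_map D σ.toRingHom r t

theorem map_posUnipotent_le {e : GL D.Idx F ≃* GL D.Idx F}
    (he : ∀ r < D.nroots, ∀ t, ∃ u, e (G.xg r t) = G.xg r u) :
    (D.posUnipotent F).map e.toMonoidHom ≤ D.posUnipotent F ∧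
      (D.negUnipotent F).map e.toMonoidHom ≤ D.negUnipotent F := by
  constructor <;> refine Subgroup.map_le_iff_le_comap.2 ((Subgroup.closure_le _).2 ?_) <;>
    rintro g ⟨r, t, hr, hg⟩ <;> rw [G.eq_xg hg] <;> obtain ⟨u, hu⟩ := he r hr.1 t
  · exact (show e (G.xg r t) ∈ D.posUnipotent F by rw [hu]; exact G.xg_mem_pos hr u)
  · exact (show e (G.xg r t) ∈ D.negUnipotent F by rw [hu]; exact G.xg_mem_neg hr u)

theorem sat_mul {j : Fin T.m} {a b : Fin D.rank → F} (ha : T.Sat f j a) (hb : T.Sat f j b) :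
    T.Sat f j fun k => a k * b k := fun k hk => by rw [map_mul, ← ha k hk, ← hb k hk]

include h

variable (hdec : Chev.chkDec D = true)

theorem dEq_pP {c : Fin D.rank → Fˣ} (hc : c ∈ T.fixParam f) (hdec : Chev.chkDec D = true) {j : Fin T.m} {t : F}
    (ht : InK T f j t) :
    (InK T f j ((c (T.rep j) : F) * t) ∧ dEq G c (pP T G f j t) = pP T G f j ((c (T.rep j) : F) * t)) ∧
      (InK T f j (((c (T.rep j))⁻¹ : Fˣ) * t) ∧
        dEq G c (pQ T G f j t) = pQ T G f j (((c (T.rep j))⁻¹ : Fˣ) * t)) := by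
  have hs : T.Sat f j fun k => (c k : F) := fun k _ => congrArg Units.val (hc k)
  have hs' : T.Sat f j fun k => (((c k)⁻¹ : Fˣ) : F) := fun k _ => congrArg Units.val ((inv_mem hc : c⁻¹ ∈ T.fixParam f) k)
  obtain ⟨h1, e1⟩ := pX_eq_pP h (G := G) f (sat_mul f hs (T.sat_orbParam h f ht))
  obtain ⟨h2, e2⟩ := nX_eq_pQ h (G := G) f (sat_mul f hs' (T.sat_orbParam h f ht))
  rw [orbParam_rep h f] at h1 e1 h2 e2
  refine ⟨⟨h1, ?_⟩, ⟨h2, ?_⟩⟩
  · rw [← e1, pP, GraphData.pX, GraphData.orbProd, map_list_prod, List.map_map]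
    refine congrArg List.prod (List.map_congr_left fun k _ => ?_)
    rw [Function.comp_apply, dEq_xg hdec c (G.simple_lt k.2), charOf_simple]
  · rw [← e2, pQ, GraphData.nX, GraphData.orbProd, map_list_prod, List.map_map]
    refine congrArg List.prod (List.map_congr_left fun k _ => ?_)
    rw [Function.comp_apply, dEq_xg hdec c (G.neg_lt (G.simple_lt k.2)), charOf_neg G c (G.simple_lt k.2), charOf_simple]

omit h in
theorem sEq_pP (σ : F ≃+* F) (hσ : ∀ x, σ (f x) = f (σ x)) (j : Fin T.m) (t : F) :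
    (InK T f j t → InK T f j (σ t)) ∧ sEq D σ (pP T G f j t) = pP T G f j (σ t) ∧
      sEq D σ (pQ T G f j t) = pQ T G f j (σ t) := by
  have hn : ∀ n x, σ (f^[n] x) = f^[n] (σ x) := fun n x => by
    induction n with
    | zero => rfl
    | succ n ih => rw [Function.iterate_succ_apply', Function.iterate_succ_apply', hσ, ih]
  refine ⟨fun ht => by rw [InK, ← hn, ht], ?_, ?_⟩
  · rw [pP, pP, GraphData.pX, GraphData.pX, GraphData.orbProd, GraphData.orbProd, map_list_prod, List.map_map]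
    exact congrArg List.prod (List.map_congr_left fun k _ => by
      rw [Function.comp_apply, sEq_xg, GraphData.orbParam, GraphData.orbParam, hn])
  · rw [pQ, pQ, GraphData.nX, GraphData.nX, GraphData.orbProd, GraphData.orbProd, map_list_prod, List.map_map]
    exact congrArg List.prod (List.map_congr_left fun k _ => by
      rw [Function.comp_apply, sEq_xg, GraphData.orbParam, GraphData.orbParam, hn])

variable [Finite F]

theorem map_tG {e : GL D.Idx F ≃* GL D.Idx F}
    (hP : ∀ j t, InK T f j t → e (pP T G f j t) ∈ tG h C f ∧ e (pQ T G f j t) ∈ tG h C f) :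
    (tG h C f).map e.toMonoidHom = tG h C f := by
  refine Subgroup.eq_of_le_of_card_ge ?_ (le_of_eq (Subgroup.card_map_of_injective e.injective).symm)
  conv_lhs => rw [show tG h C f = _ from T.G1_eq_closure h C f]
  refine Subgroup.map_le_iff_le_comap.2 ((Subgroup.closure_le _).2 ?_)
  rintro g ⟨j, c, hc, rfl | rfl⟩
  · obtain ⟨ht, e'⟩ := pX_eq_pP h (G := G) f hc
    rw [e']; exact (hP j _ ht).1
  · obtain ⟨ht, e'⟩ := nX_eq_pQ h (G := G) f hc
    rw [e']; exact (hP j _ ht).2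

/-- An automorphism of the linear group restricted to the twisted group. -/
noncomputable def resAut (e : GL D.Idx F ≃* GL D.Idx F)
    (hP : ∀ j t, InK T f j t → e (pP T G f j t) ∈ tG h C f ∧ e (pQ T G f j t) ∈ tG h C f) : MulAut ↥(tG h C f) :=
  (e.subgroupMap (tG h C f)).trans (MulEquiv.subgroupCongr (map_tG h C f hP))

theorem resAut_coe (e : GL D.Idx F ≃* GL D.Idx F)
    (hP : ∀ j t, InK T f j t → e (pP T G f j t) ∈ tG h C f ∧ e (pQ T G f j t) ∈ tG h C f) (g : ↥(tG h C f)) :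
    ((resAut h C f e hP g : ↥(tG h C f)) : GL D.Idx F) = e g := rfl

/-- Diagonal automorphisms of the twisted group. -/
noncomputable def rDiag (hdec : Chev.chkDec D = true) (c : ↥(T.fixParam f)) : MulAut ↥(tG h C f) :=
  resAut h C f (dEq G c.1) fun j t ht => by
    obtain ⟨⟨h1, e1⟩, ⟨h2, e2⟩⟩ := dEq_pP h f c.2 hdec ht
    rw [e1, e2]
    exact ⟨pP_mem h C f h1, pQ_mem h C f h2⟩

/-- Field automorphisms of the twisted group. -/
noncomputable def rField (hcomm : ∀ (σ : F ≃+* F) x, σ (f x) = f (σ x)) (σ : F ≃+* F) : MulAut ↥(tG h C f) :=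
  resAut h C f (sEq D σ) fun j t ht => by
    obtain ⟨h1, e1, e2⟩ := sEq_pP f σ (hcomm σ) (G := G) j t
    rw [e1, e2]
    exact ⟨pP_mem h C f (h1 ht), pQ_mem h C f (h1 ht)⟩

theorem tAut_ext {a b : MulAut ↥(tG h C f)}
    (hP : ∀ j t, InK T f j t → ap h C f a (pP T G f j t) = ap h C f b (pP T G f j t))
    (hQ : ∀ j t, InK T f j t → ap h C f a (pQ T G f j t) = ap h C f b (pQ T G f j t)) : a = b := by
  have hle : tG h C f ≤ (MonoidHom.eqLocus ((tG h C f).subtype.comp a.toMonoidHom)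
      ((tG h C f).subtype.comp b.toMonoidHom)).map (tG h C f).subtype := by
    conv_lhs => rw [show tG h C f = _ from T.G1_eq_closure h C f]
    refine (Subgroup.closure_le _).2 ?_
    rintro g ⟨j, c, hc, rfl | rfl⟩
    · obtain ⟨ht, e'⟩ := pX_eq_pP h (G := G) f hc
      rw [e']
      refine ⟨⟨_, pP_mem h C f ht⟩, ?_, rfl⟩
      have := hP j _ ht
      rw [ap, ap, dif_pos (pP_mem h C f ht), dif_pos (pP_mem h C f ht)] at this
      exact this
    · obtain ⟨ht, e'⟩ := nX_eq_pQ h (G := G) f hc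
      rw [e']
      refine ⟨⟨_, pQ_mem h C f ht⟩, ?_, rfl⟩
      have := hQ j _ ht
      rw [ap, ap, dif_pos (pQ_mem h C f ht), dif_pos (pQ_mem h C f ht)] at this
      exact this
  refine MulEquiv.ext fun x => ?_
  obtain ⟨y, hy, e⟩ := hle x.2
  rw [show y = x from Subtype.ext e] at hy
  exact Subtype.ext hy

theorem ap_mul_aut (a b : MulAut ↥(tG h C f)) {g : GL D.Idx F} (hg : g ∈ tG h C f) :
    ap h C f (a * b) g = ap h C f a (ap h C f b g) := by
  have e : ap h C f b g = ((b ⟨g, hg⟩ : ↥(tG h C f)) : GL D.Idx F) := dif_pos hg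
  rw [e, ap_coe h C f, ap, dif_pos hg]
  rfl

theorem ap_resAut (e : GL D.Idx F ≃* GL D.Idx F)
    (hP : ∀ j t, InK T f j t → e (pP T G f j t) ∈ tG h C f ∧ e (pQ T G f j t) ∈ tG h C f) {g : GL D.Idx F}
    (hg : g ∈ tG h C f) : ap h C f (resAut h C f e hP) g = e g := by
  rw [ap, dif_pos hg]
  rfl

variable (hdec : Chev.chkDec D = true) (hcomm : ∀ (σ : F ≃+* F) x, σ (f x) = f (σ x))

theorem ap_rDiag_pP (c : ↥(T.fixParam f)) {j : Fin T.m} {t : F} (ht : InK T f j t) :
    ap h C f (rDiag h C f hdec c) (pP T G f j t) = pP T G f j ((c.1 (T.rep j) : F) * t) ∧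
      ap h C f (rDiag h C f hdec c) (pQ T G f j t) = pQ T G f j (((c.1 (T.rep j))⁻¹ : Fˣ) * t) := by
  obtain ⟨⟨-, e1⟩, ⟨-, e2⟩⟩ := dEq_pP h (G := G) f c.2 hdec ht
  exact ⟨(ap_resAut h C f _ _ (pP_mem h C f ht)).trans e1, (ap_resAut h C f _ _ (pQ_mem h C f ht)).trans e2⟩

theorem ap_rField_pP (σ : F ≃+* F) {j : Fin T.m} {t : F} (ht : InK T f j t) :
    ap h C f (rField h C f hcomm σ) (pP T G f j t) = pP T G f j (σ t) ∧
      ap h C f (rField h C f hcomm σ) (pQ T G f j t) = pQ T G f j (σ t) := by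
  obtain ⟨-, e1, e2⟩ := sEq_pP (G := G) f σ (hcomm σ) j t
  exact ⟨(ap_resAut h C f _ _ (pP_mem h C f ht)).trans e1, (ap_resAut h C f _ _ (pQ_mem h C f ht)).trans e2⟩

theorem rDiag_mul (c c' : ↥(T.fixParam f)) : rDiag h C f hdec (c * c') = rDiag h C f hdec c * rDiag h C f hdec c' := by
  refine tAut_ext h C f (fun j t ht => ?_) fun j t ht => ?_
  · obtain ⟨⟨h1, -⟩, -⟩ := dEq_pP h (G := G) f c'.2 hdec ht
    rw [(ap_rDiag_pP h C f hdec _ ht).1, ap_mul_aut h C f _ _ (pP_mem h C f ht), (ap_rDiag_pP h C f hdec _ ht).1,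
      (ap_rDiag_pP h C f hdec _ h1).1, Subgroup.coe_mul, Pi.mul_apply, Units.val_mul, mul_assoc]
  · obtain ⟨-, h1, -⟩ := dEq_pP h (G := G) f c'.2 hdec ht
    rw [(ap_rDiag_pP h C f hdec _ ht).2, ap_mul_aut h C f _ _ (pQ_mem h C f ht), (ap_rDiag_pP h C f hdec _ ht).2,
      (ap_rDiag_pP h C f hdec _ h1).2, Subgroup.coe_mul, Pi.mul_apply, mul_inv, Units.val_mul, mul_assoc]

theorem rDiag_one : rDiag h C f hdec 1 = 1 := by
  have := rDiag_mul h C f hdec 1 1
  rw [mul_one] at this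
  exact left_eq_mul.1 this

/-- The values of the fixed torus on the fundamental roots. -/
noncomputable def tChi : ↥(T.fixParam f) →* ↥(T.fixParam f) where
  toFun z := ⟨fun k => G.torusVal z.1 (D.simple k), fun k => T.torusVal_rho h f z.1 z.2 k⟩
  map_one' := Subtype.ext (funext fun _ => G.torusVal_one _)
  map_mul' _ _ := Subtype.ext (funext fun _ => G.torusVal_mul _ _ _)

omit [Finite F] in
theorem torus_mem_tG (z : ↥(T.fixParam f)) : G.torus z.1 ∈ tG h C f :=
  (T.tdata h C f).N0_le_G1 ((T.tdata h C f).H0_le_N0 ⟨z.1, z.2, rfl⟩)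

omit [Finite F] in
theorem torus_conj_pP (z : ↥(T.fixParam f)) {j : Fin T.m} {t : F} (ht : InK T f j t) :
    G.torus z.1 * pP T G f j t * (G.torus z.1)⁻¹ = pP T G f j (((tChi h f z).1 (T.rep j) : F) * t) ∧
      G.torus z.1 * pQ T G f j t * (G.torus z.1)⁻¹ = pQ T G f j ((((tChi h f z).1 (T.rep j))⁻¹ : Fˣ) * t) := by
  set c := (tChi h f z).1 with hcdef
  have hc : c ∈ T.fixParam f := (tChi h f z).2
  have hs : T.Sat f j fun k => (c k : F) := fun k _ => congrArg Units.val (hc k)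
  have hs' : T.Sat f j fun k => (((c k)⁻¹ : Fˣ) : F) := fun k _ =>
    congrArg Units.val ((inv_mem hc : c⁻¹ ∈ T.fixParam f) k)
  obtain ⟨-, e1⟩ := pX_eq_pP h (G := G) f (sat_mul f hs (T.sat_orbParam h f ht))
  obtain ⟨-, e2⟩ := nX_eq_pQ h (G := G) f (sat_mul f hs' (T.sat_orbParam h f ht))
  rw [orbParam_rep h f] at e1 e2
  refine ⟨?_, ?_⟩
  · rw [← e1, ← MulAut.conj_apply, pP, GraphData.pX, GraphData.orbProd, map_list_prod, List.map_map]
    exact congrArg List.prod (List.map_congr_left fun k _ => G.torus_conj_xg z.1 (G.simple_lt k.2) _)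
  · rw [← e2, ← MulAut.conj_apply, pQ, GraphData.nX, GraphData.orbProd, map_list_prod, List.map_map]
    refine congrArg List.prod (List.map_congr_left fun k _ => ?_)
    rw [Function.comp_apply, MulAut.conj_apply, G.torus_conj_xg z.1 (G.neg_lt (G.simple_lt k.2))]
    congr 2
    rw [hcdef, torusVal_neg' G z.1 k]
    rfl
where
  torusVal_neg' (G : Good D) (z : Fin D.rank → Fˣ) (k : Fin D.rank) :
      G.torusVal z (D.neg (D.simple k)) = (G.torusVal z (D.simple k))⁻¹ := by
    simp [Good.torusVal, G.rc_neg (G.simple_lt k.2), G.cartForm_neg, zpow_neg]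

theorem rDiag_inner (z : ↥(T.fixParam f)) :
    rDiag h C f hdec (tChi h f z) = MulAut.conj ⟨G.torus z.1, torus_mem_tG h C f z⟩ := by
  refine tAut_ext h C f (fun j t ht => ?_) fun j t ht => ?_
  · rw [(ap_rDiag_pP h C f hdec _ ht).1, ← (torus_conj_pP h f z ht).1, ap, dif_pos (pP_mem h C f ht)]
    rfl
  · rw [(ap_rDiag_pP h C f hdec _ ht).2, ← (torus_conj_pP h f z ht).2, ap, dif_pos (pQ_mem h C f ht)]
    rfl

omit hdec hcomm in
/-- The index of the values of the torus. -/
theorem index_tChi {n : ℕ} (hn : Nat.card {z : Fin D.rank → Fˣ //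
    (∀ k, z (T.ρF k) = Units.map f.toMonoidHom (z k)) ∧ act (cartT D G.tab) z = 1} = n) :
    (tChi (G := G) h f).range.index = n := by
  have hk : Nat.card (tChi (G := G) h f).ker = n := by
    rw [← hn]
    refine Nat.card_congr
      { toFun := fun x => ⟨x.1.1, x.1.2, ?_⟩
        invFun := fun z => ⟨⟨z.1, z.2.1⟩, ?_⟩
        left_inv := fun _ => rfl
        right_inv := fun _ => rfl }
    · funext k
      rw [G.act_cartT_apply]
      exact congrFun (congrArg Subtype.val (MonoidHom.mem_ker.1 x.2)) k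
    · refine MonoidHom.mem_ker.2 (Subtype.ext (funext fun k => ?_))
      show G.torusVal z.1 (D.simple k) = 1
      rw [← G.act_cartT_apply]
      exact congrFun z.2.2 k
  have h1 := Subgroup.card_mul_index (tChi (G := G) h f).range
  have h2 := Subgroup.card_mul_index (tChi (G := G) h f).ker
  rw [Subgroup.index_ker, hk] at h2
  rw [← h2, mul_comm n] at h1
  exact Nat.eq_of_mul_eq_mul_left Nat.card_pos h1

omit hdec hcomm in
theorem exists_fixParam (u : Fin T.m → Fˣ) (hu : ∀ j, InK T f j (u j : F)) :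
    ∃ c : ↥(T.fixParam f), ∀ j, c.1 (T.rep j) = u j := by
  classical
  let u0 : Fin D.rank → Fin T.m := fun k => (h.cover k).choose
  have hu0 : ∀ k, k ∈ T.orb (u0 k) := fun k => (h.cover k).choose_spec
  have horb : ∀ {j k}, k ∈ T.orb j → u0 k = j := fun {j k} hk => h.disjoint _ j k (hu0 k) hk
  refine ⟨⟨fun k => Units.mk0 _ (orbParam_ne_zero (T := T) f (u0 k) (u (u0 k)).ne_zero k), fun k => Units.ext ?_⟩,
    fun j => Units.ext ?_⟩
  · have e := horb (T.ρF_mem h (hu0 k))
    simp only [Units.val_mk0, Units.coe_map, MonoidHom.coe_coe, RingHom.toMonoidHom_eq_coe]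
    rw [e]
    exact T.sat_orbParam h f (hu _) k (hu0 k)
  · simp only [Units.val_mk0]
    rw [horb (T.rep_mem_orb h j), orbParam_rep h f]

variable {n₀ : GL D.Idx F} (hopp : IsOpp h C f n₀) (hopp' : IsOpp h C f n₀⁻¹)

include hopp hopp'

/-- The kernel of the parametrisation modulo inner automorphisms. -/
theorem diag_field_inner {c : ↥(T.fixParam f)} {σ : F ≃+* F} {y : ↥(tG h C f)}
    (j₀ : Fin T.m) (hj₀ : ∀ t : F, InK T f j₀ t)
    (e : rDiag h C f hdec c * rField h C f hcomm σ = MulAut.conj y) :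
    c ∈ (tChi (G := G) h f).range ∧ σ = RingEquiv.refl F := by
  have hval : ∀ g : ↥(tG h C f), dEq G c.1 (sEq D σ (g : GL D.Idx F)) =
      (y : GL D.Idx F) * g * (y : GL D.Idx F)⁻¹ := fun g =>
    congrArg Subtype.val (DFunLike.congr_fun e g)
  set E := (sEq D σ).trans (dEq G c.1) with hE
  have hEx : ∀ r < D.nroots, ∀ t, ∃ u, E (G.xg r t) = G.xg r u := fun r hr t => by
    refine ⟨(charOf G c.1 r : F) * σ t, ?_⟩
    show dEq G c.1 (sEq D σ (G.xg r t)) = _
    rw [sEq_xg, dEq_xg hdec _ hr]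
  obtain ⟨hEU, hEV⟩ := map_posUnipotent_le hEx
  have hfix : ∀ (K : Subgroup (GL D.Idx F)), K.map E.toMonoidHom ≤ K →
      cj (y : GL D.Idx F) (K ⊓ tG h C f) = K ⊓ tG h C f := by
    intro K hK
    refine Subgroup.eq_of_le_of_card_ge ?_ (le_of_eq (card_cj _ _).symm)
    rintro g ⟨x, hx, rfl⟩
    refine ⟨?_, cj_le_G1 h C f y.2 inf_le_right (Subgroup.mem_map_of_mem _ hx)⟩
    show (y : GL D.Idx F) * x * (y : GL D.Idx F)⁻¹ ∈ K
    rw [← hval ⟨x, hx.2⟩]
    exact hK (Subgroup.mem_map_of_mem E.toMonoidHom hx.1)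
  have hU : cj (y : GL D.Idx F) (tU h C f) = tU h C f := by
    have := hfix _ hEU
    rwa [T.inf_U_G1 h C f] at this
  have hV : cj (y : GL D.Idx F) (tV h C f) = tV h C f := hfix _ hEV
  obtain ⟨u, hu, k, hk, hy⟩ := (T.tdata h C f).B1_eq (mem_B1_of_cj_eq h C f y.2 hU)
  have hu1 : u = 1 := by
    have hkV : cj k (tV h C f) = tV h C f := by
      rw [← IsOpp.cj_U1 h C f hopp, ← cj_mul, show k * n₀ = n₀ * (n₀⁻¹ * k * n₀) by group, cj_mul,
        cj_U1_of_B1 h C f (H0_le_B1 h C f (by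
          simpa using (T.tdata h C f).H0_normal (inv_mem hopp.mem) hk))]
    have huV : cj u (tV h C f) = tV h C f := by
      rw [hy, cj_mul, hkV] at hV
      exact hV
    set v := n₀ * u * n₀⁻¹ with hv
    have hvV : v ∈ tV h C f := by
      rw [← IsOpp.cj_U1 h C f hopp]
      exact Subgroup.mem_map_of_mem _ hu
    have hvU : cj v (tU h C f) = tU h C f := by
      rw [hv, cj_mul, cj_mul, IsOpp.cj_U1 h C f hopp', huV, cj_opp_V h C f hopp hopp']
    have hvB : v ∈ D.borelSubgroup F := by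
      have := mem_B1_of_cj_eq h C f hvV.2 hvU
      rw [← T.inf_B_G1 h C f] at this
      exact this.1
    have := (Subgroup.eq_bot_iff_forall _).1 G.borel_inf_neg _ ⟨hvB, hvV.1⟩
    rwa [hv, conj_eq_one_iff] at this
  rw [hu1, one_mul] at hy
  obtain ⟨z, hz, hkz⟩ := hk
  have hscal : ∀ j t, InK T f j t →
      (c.1 (T.rep j) : F) * σ t = ((tChi (G := G) h f ⟨z, hz⟩).1 (T.rep j) : F) * t := by
    intro j t ht
    refine pP_inj h (G := G) f j ?_
    rw [← (torus_conj_pP h (G := G) f ⟨z, hz⟩ ht).1, ← hkz, ← hy, ← hval ⟨_, pP_mem h C f ht⟩]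
    obtain ⟨h1, e1, -⟩ := sEq_pP (G := G) f σ (hcomm σ) j t
    rw [e1]
    exact (dEq_pP h f c.2 hdec (h1 ht)).1.2.symm
  have hc : c = tChi (G := G) h f ⟨z, hz⟩ := by
    refine Subtype.ext (funext fun k => Units.ext ?_)
    obtain ⟨j, hj⟩ := h.cover k
    obtain ⟨s, -, rfl⟩ := List.mem_map.1 hj
    have h1 := hscal j 1 (InK.one f j)
    rw [map_one, mul_one, mul_one] at h1
    rw [(T.sat_iterate h f (c := fun k => (c.1 k : F)) (fun k _ => congrArg Units.val (c.2 k)) s).2,
      (T.sat_iterate h f (c := fun k => ((tChi (G := G) h f ⟨z, hz⟩).1 k : F))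
        (fun k _ => congrArg Units.val ((tChi (G := G) h f ⟨z, hz⟩).2 k)) s).2, h1]
  refine ⟨⟨⟨z, hz⟩, hc.symm⟩, RingEquiv.ext fun t => ?_⟩
  have := hscal j₀ t (hj₀ t)
  rw [hc] at this
  exact mul_left_cancel₀ (Units.ne_zero _) this

include hdec hcomm in
/-- The order of the outer automorphism group. -/
theorem card_out_twist (p : ℕ) [Fact p.Prime] [CharP F p] {n : ℕ}
    (hn : Nat.card {z : Fin D.rank → Fˣ //
      (∀ k, z (T.ρF k) = Units.map f.toMonoidHom (z k)) ∧ act (cartT D G.tab) z = 1} = n)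
    (j₀ : Fin T.m) (hj₀ : ∀ t : F, InK T f j₀ t)
    (hnodes : ∀ θ : ↥(tG h C f) ≃* ↥(tG h C f), im θ (tU h C f) = tU h C f → im θ (tV h C f) = tV h C f →
      ∀ j, im θ ((T.tdata h C f).X1 j) = (T.tdata h C f).X1 j ∧ im θ (tY h C f j) = tY h C f j)
    (hfield : ∀ (θ : ↥(tG h C f) ≃* ↥(tG h C f)) (φ ψ : Fin T.m → F → F), TActs h C f θ φ ψ →
      (∀ j, φ j 1 = 1) → ∃ σ : F ≃+* F, ∀ j t, InK T f j t → φ j t = σ t) :
    Nat.card (Cfsg.Out ↥(tG h C f)) = n * Nat.card (F ≃+* F) := by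
  set R := (tChi (G := G) h f).range
  haveI hN : (Cfsg.Inn ↥(tG h C f)).Normal := inferInstance
  let mk : MulAut ↥(tG h C f) → Cfsg.Out ↥(tG h C f) := fun a => QuotientGroup.mk a
  have mkmul : ∀ a b, mk (a * b) = mk a * mk b := fun _ _ => rfl
  have mkconj : ∀ x, mk (MulAut.conj x) = 1 := fun x => (QuotientGroup.eq_one_iff _).2 ⟨x, rfl⟩
  have hR : ∀ c ∈ R, mk (rDiag h C f hdec c) = 1 := by
    rintro c ⟨z, rfl⟩
    rw [rDiag_inner h C f hdec z, mkconj]
  let Ψ : ((↥(T.fixParam f) ⧸ R) × (F ≃+* F)) → Cfsg.Out ↥(tG h C f) := fun p =>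
    mk (rDiag h C f hdec p.1.out * rField h C f hcomm p.2)
  have hout : ∀ c, mk (rDiag h C f hdec (QuotientGroup.mk c : ↥(T.fixParam f) ⧸ R).out) =
      mk (rDiag h C f hdec c) := fun c => by
    obtain ⟨r, hr⟩ := QuotientGroup.mk_out_eq_mul R c
    rw [hr, rDiag_mul h C f hdec, mkmul, hR _ r.2, mul_one]
  have hbij : Function.Bijective Ψ := by
    constructor
    · rintro ⟨q, σ⟩ ⟨q', σ'⟩ e
      have e' : mk (rDiag h C f hdec (q'.out⁻¹ * q.out) * rField h C f hcomm (σ'.symm.trans σ)) = 1 := by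
        have hf2 : rField h C f hcomm σ = rField h C f hcomm (σ'.symm.trans σ) * rField h C f hcomm σ' := by
          refine tAut_ext h C f (fun j t ht => ?_) fun j t ht => ?_
          all_goals
            have ht' := ((sEq_pP (G := G) f σ' (hcomm σ') j t).1 ht)
          · rw [(ap_rField_pP h C f hcomm σ ht).1, ap_mul_aut h C f _ _ (pP_mem h C f ht),
              (ap_rField_pP h C f hcomm σ' ht).1, (ap_rField_pP h C f hcomm _ ht').1]
            simp
          · rw [(ap_rField_pP h C f hcomm σ ht).2, ap_mul_aut h C f _ _ (pQ_mem h C f ht),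
              (ap_rField_pP h C f hcomm σ' ht).2, (ap_rField_pP h C f hcomm _ ht').2]
            simp
        simp only [Ψ] at e
        have hd : rDiag h C f hdec q.out = rDiag h C f hdec q'.out * rDiag h C f hdec (q'.out⁻¹ * q.out) := by
          rw [← rDiag_mul h C f hdec, mul_inv_cancel_left]
        rw [hd, hf2, mkmul, mkmul, mkmul, mkmul, mul_assoc, mul_right_inj, ← mul_assoc] at e
        rw [mkmul]
        exact mul_eq_right.1 e
      obtain ⟨y, hy⟩ := (QuotientGroup.eq_one_iff _).1 e'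
      obtain ⟨hc, hσ⟩ := diag_field_inner h C f hdec hcomm hopp hopp' j₀ hj₀ hy.symm
      have hq : q' = q := by
        rw [← QuotientGroup.out_eq' q, ← QuotientGroup.out_eq' q', QuotientGroup.eq]
        exact hc
      subst hq
      congr 1
      refine RingEquiv.ext fun t => ?_
      have := RingEquiv.congr_fun hσ (σ' t)
      simpa using this
    · intro a
      obtain ⟨θ, rfl⟩ := QuotientGroup.mk_surjective a
      obtain ⟨x, hU, hV⟩ := normalise h C f hopp hopp' p θ
      set θ₁ := θ.trans (MulAut.conj x)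
      have hX := hnodes θ₁ hU hV
      obtain ⟨φ, ψ, A⟩ := exists_tActs h C f θ₁ (fun j => (hX j).1) fun j => (hX j).2
      have hne : ∀ j, φ j 1 ≠ 0 := fun j => TActs.map_ne_zero h C f A (InK.one f j) one_ne_zero
      obtain ⟨c, hc⟩ := exists_fixParam h f (fun j => (Units.mk0 _ (hne j))⁻¹) fun j => by
        rw [Units.val_inv_eq_inv_val, Units.val_mk0]
        exact InK.inv f (A.mem j 1 (InK.one f j))
      set θ₂ := rDiag h C f hdec c * θ₁
      have him : ∀ (K : Subgroup (GL D.Idx F)), K ≤ tG h C f →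
          (∀ g ∈ K, dEq G c.1 g ∈ K) → im θ₁ K = K → im θ₂ K = K := by
        intro K hK hd hθ
        show im (θ₁.trans (rDiag h C f hdec c)) K = K
        rw [im_trans, hθ]
        refine Subgroup.eq_of_le_of_card_ge ?_ (le_of_eq (card_im _ hK).symm)
        intro g hg
        obtain ⟨w, hw, rfl⟩ := mem_im.1 hg
        exact hd _ hw
      have A₂ : TActs h C f θ₂ (fun j t => (c.1 (T.rep j) : F) * φ j t)
          (fun j t => (((c.1 (T.rep j))⁻¹ : Fˣ) : F) * ψ j t) := by
        refine ⟨fun j t ht => ((dEq_pP h (G := G) f c.2 hdec (A.mem j t ht)).1).1,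
          fun j t ht => ((dEq_pP h (G := G) f c.2 hdec (A.memN j t ht)).2).1, fun j t ht => ?_, fun j t ht => ?_,
          fun j => ?_, fun j => ?_⟩
        · show ap h C f (rDiag h C f hdec c * θ₁) _ = _
          rw [ap_mul_aut h C f _ _ (pP_mem h C f ht), A.pos j t ht, (ap_rDiag_pP h C f hdec c (A.mem j t ht)).1]
        · show ap h C f (rDiag h C f hdec c * θ₁) _ = _
          rw [ap_mul_aut h C f _ _ (pQ_mem h C f ht), A.neg j t ht, (ap_rDiag_pP h C f hdec c (A.memN j t ht)).2]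
        · refine him _ ((X1_le_U1 h C f j).trans (T.tdata h C f).U1_le_G1) (fun g hg => ?_) (hX j).1
          obtain ⟨t, ht, rfl⟩ := (mem_X1_pP h C f).1 hg
          obtain ⟨⟨h1, e1⟩, -⟩ := dEq_pP h (G := G) f c.2 hdec ht
          rw [e1]; exact (mem_X1_pP h C f).2 ⟨_, h1, rfl⟩
        · refine him _ ((tY_le_V h C f j).trans inf_le_right) (fun g hg => ?_) (hX j).2
          obtain ⟨t, ht, rfl⟩ := (mem_tY_pQ h C f).1 hg
          obtain ⟨-, h1, e1⟩ := dEq_pP h (G := G) f c.2 hdec ht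
          rw [e1]; exact (mem_tY_pQ h C f).2 ⟨_, h1, rfl⟩
      have h1 : ∀ j, (c.1 (T.rep j) : F) * φ j 1 = 1 := fun j => by
        rw [hc j, Units.val_inv_eq_inv_val, Units.val_mk0, inv_mul_cancel₀ (hne j)]
      obtain ⟨σ, hσ⟩ := hfield θ₂ _ _ A₂ h1
      have hθ2 : θ₂ = rField h C f hcomm σ := by
        refine tAut_ext h C f (fun j t ht => ?_) fun j t ht => ?_
        · rw [(ap_rField_pP h C f hcomm σ ht).1, A₂.pos j t ht, hσ j t ht]
        · rw [(ap_rField_pP h C f hcomm σ ht).2, A₂.neg j t ht]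
          congr 1
          by_cases h0 : t = 0
          · subst h0
            rw [map_zero]
            refine pQ_inj h (G := G) f j ?_
            rw [← A₂.neg j 0 ht]
            have hz : pQ T G f j (0 : F) = 1 := List.prod_eq_one fun w hw => by
              obtain ⟨k, -, rfl⟩ := List.mem_map.1 hw
              rw [GraphData.orbParam, iterate_map_zero, G.xg_zero]
            rw [hz, ap, dif_pos (one_mem _)]
            exact congrArg Subtype.val (map_one θ₂)
          · have hi : InK T f j (-t⁻¹) := InK.neg f (InK.inv f ht)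
            have := TActs.psi_eq h C f A₂ hi (neg_ne_zero.2 (inv_ne_zero h0))
            rw [inv_neg, inv_inv, _root_.neg_neg, hσ j _ hi, map_neg, map_inv₀, inv_neg, inv_inv,
              _root_.neg_neg] at this
            exact this
      refine ⟨(QuotientGroup.mk c⁻¹, σ), ?_⟩
      show mk (rDiag h C f hdec (QuotientGroup.mk c⁻¹ : ↥(T.fixParam f) ⧸ R).out * rField h C f hcomm σ) = mk θ
      have hθ : θ₂ = rDiag h C f hdec c * (MulAut.conj x * θ) := rfl
      rw [mkmul, hout, ← hθ2, hθ, mkmul, mkmul, mkconj, one_mul, ← mul_assoc, ← mkmul, ← rDiag_mul h C f hdec,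
        inv_mul_cancel, rDiag_one h C f hdec]
      exact one_mul _
  rw [← Nat.card_congr (Equiv.ofBijective Ψ hbij), Nat.card_prod,
    show Nat.card (↥(T.fixParam f) ⧸ R) = R.index from rfl, index_tChi h f hn]

end Cfsg.Agent.H64.Twist
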