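import Cfsg.Agent.H64.Twist.Aut
import Cfsg.Agent.H64.TwinE6.Main
import Cfsg.Agent.H46.TwistE6
import Cfsg.Agent.H46.TwistD4
import Cfsg.Agent.H46.TwistField

/-!
# Outer automorphisms of ³D₄ and ²E₆
-/

set_option autoImplicit false
set_option maxRecDepth 100000

namespace Cfsg.Agent.H64.Twist

open Cfsg.Lie Cfsg.Agent.H46 Cfsg.Agent.H47 Cfsg.Agent.H64.Opp Cfsg.Agent.H64.AutChev
open scoped Matrix MatrixGroups

section generic

variable {D : ChevalleyDatum} {T : GraphData D} {G : Good D} {F : Type*} [Field F]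
variable (h : T.Ok G) (C : CoxData G) (f : F →+* F)

/-- The top word sends every orbit to its opposite. -/
def chkTop (T : GraphData D) (G : Good D) (w : List (Fin T.m)) : Prop :=
  ∀ j, ∀ k ∈ T.orb j, ∃ k' ∈ T.orb j, appT T G w (D.simple k) = D.neg (D.simple k')

include h

theorem isOpp_word {w : List (Fin T.m)} (hw : chkTop T G w) (hw' : chkTop T G w.reverse) :
    IsOpp h C f (w.map fun j => T.nPar G j (fun _ => (1 : F))).prod ∧
      IsOpp h C f (w.map fun j => T.nPar G j (fun _ => (1 : F))).prod⁻¹ := by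
  obtain ⟨hm, he⟩ := T.perm_tRep_aux h (F := F) w
  have hN : (w.map fun j => T.nPar G j (fun _ => (1 : F))).prod ∈ (T.tdata h C f).N0 :=
    Subgroup.list_prod_mem _ fun x hx => by
      obtain ⟨j, -, rfl⟩ := List.mem_map.1 hx
      exact (T.tdata h C f).nS_mem_N0 j
  refine ⟨⟨hN, fun j k hk => ?_⟩, ⟨inv_mem hN, fun j k hk => ?_⟩⟩
  · obtain ⟨k', hk', e⟩ := hw j k hk
    exact ⟨k', hk', Fin.ext (by rw [he, T.coe_tPerm h]; exact e)⟩
  · obtain ⟨k', hk', e⟩ := hw' j k hk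
    refine ⟨k', hk', Fin.ext ?_⟩
    rw [G.perm_inv hm, he, ← T.tPerm_reverse h, T.coe_tPerm h]
    exact e

variable [Finite F] {θ : ↥(tG h C f) ≃* ↥(tG h C f)} {φ ψ : Fin T.m → F → F}

/-- The parameter map of an orbit over the whole field is a field automorphism. -/
theorem exists_sigma (A : TActs h C f θ φ ψ) (h1 : ∀ j, φ j 1 = 1) (j : Fin T.m) (hall : ∀ t : F, InK T f j t)
    (hself : ∀ t : F, chi T f j j t = t ^ 2) : ∃ σ : F ≃+* F, ∀ t, φ j t = σ t :=
  ⟨AutChev.ringEquivOf (φ j) (Finite.injective_iff_bijective.1 fun a b e => TActs.inj h C f A (hall a) (hall b) e)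
    (fun a b => TActs.add h C f A (hall a) (hall b))
    (fun a b => TActs.map_mul h C f A h1 j hself (hall a) (hall b)), fun _ => rfl⟩

/-- Adjacent orbits have the same field automorphism. -/
theorem sigma_link (A : TActs h C f θ φ ψ) (h1 : ∀ j, φ j 1 = 1) {i j : Fin T.m}
    (hchi : ∀ t, InK T f i t → chi T f i j t = t⁻¹) {σ : F ≃+* F} (hj : ∀ t, InK T f j t → φ j t = σ t) :
    ∀ t, InK T f i t → φ i t = σ t := by
  intro t ht
  by_cases h0 : t = 0
  · rw [h0, map_zero, TActs.map_zero h C f A]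
  have hK := (pH_conj h C f ht h0 (InK.one f j)).1
  have e := TActs.torus_rel h C f A h1 ht h0 (InK.one f j)
  rw [hchi t ht, mul_one] at hK
  rw [hchi t ht, hchi _ (A.mem i t ht), mul_one, h1, mul_one, hj _ hK, map_inv₀] at e
  exact (inv_inj.1 e).symm

/-- An automorphism fixing `U¹` and `V¹` preserves commuting of orbit groups. -/
theorem commute_transfer (K : Fin T.m → Subgroup (GL D.Idx F)) (hK : ∀ j, K j ≤ tG h C f) (π : Fin T.m → Fin T.m)
    (hπ : ∀ j, im θ (K j) = K (π j)) {a b : Fin T.m} (hab : ∀ x ∈ K a, ∀ y ∈ K b, Commute x y) :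
    ∀ x ∈ K (π a), ∀ y ∈ K (π b), Commute x y := by
  intro x hx y hy
  rw [← hπ a, mem_im] at hx
  rw [← hπ b, mem_im] at hy
  obtain ⟨x', hx', rfl⟩ := hx
  obtain ⟨y', hy', rfl⟩ := hy
  have e : x' * y' = y' * x' := Subtype.ext (hab _ hx' _ hy')
  exact congrArg Subtype.val (show θ x' * θ y' = θ y' * θ x' by rw [← map_mul, e, map_mul])

theorem node_inj (K : Fin T.m → Subgroup (GL D.Idx F)) (hK : ∀ j, K j ≤ tG h C f) (π : Fin T.m → Fin T.m)
    (hπ : ∀ j, im θ (K j) = K (π j)) (hinj : Function.Injective K) : Function.Injective π := by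
  intro a b e
  refine hinj ?_
  have h2 : im θ.symm (im θ (K a)) = im θ.symm (im θ (K b)) := by rw [hπ, hπ, e]
  rw [← im_trans, ← im_trans, MulEquiv.self_trans_symm] at h2
  have hid : ∀ j, im (MulEquiv.refl ↥(tG h C f)) (K j) = K j := by
    intro j
    ext y
    rw [mem_im]
    exact ⟨fun ⟨z, hz, e⟩ => e ▸ hz, fun hy => ⟨⟨y, hK j hy⟩, hy, rfl⟩⟩
  rwa [hid, hid] at h2

omit [Finite F] in
theorem X1_injective : Function.Injective (T.tdata h C f).X1 := by
  intro a b e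
  have h1 : pP T G f a (1 : F) ∈ (T.tdata h C f).X1 b := e ▸ (mem_X1_pP h C f).2 ⟨1, InK.one f a, rfl⟩
  by_contra hne
  obtain ⟨c, -, hc⟩ := (T.mem_X1_iff h C f).1 h1
  have h2 := T.orbProd_mem h (G := G) (j := b) c
  rw [← GraphData.pX, ← hc] at h2
  have key : (⨆ r, ⨆ (_ : r ∈ (T.orb b).map G.simpleF), D.rootSubgroup F (r : Fin D.nroots)) ≤
      cj ((T.tdata h C f).nS b)⁻¹ (D.negUnipotent F) := iSup₂_le fun r hr x hx => by
    obtain ⟨k, hk, rfl⟩ := List.mem_map.1 hr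
    obtain ⟨u, rfl⟩ := G.rootSubgroup_mem_iff.1 hx
    rw [mem_cj, inv_inv, T.tdata_nS]
    show T.nPar G b _ * G.xg (D.simple k) u * (T.nPar G b _)⁻¹ ∈ _
    rw [T.nPar_conj_xg h hk]
    exact G.xg_mem_neg (G.isNegRoot_neg (G.isPosRoot_simple k.2)) _
  have h3 := mem_cj.1 (key h2)
  rw [inv_inv] at h3
  have h4 : (T.tdata h C f).nS b * pP T G f a (1 : F) * ((T.tdata h C f).nS b)⁻¹ ∈ D.posUnipotent F := by
    have hm := T.mem_nPar_monomial h b (c := fun _ => (1 : F)) fun _ _ => one_ne_zero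
    rw [T.tdata_nS, pP, orbParam_one, GraphData.pX, ← MulAut.conj_apply, GraphData.orbProd, map_list_prod,
      List.map_map]
    refine Subgroup.list_prod_mem _ fun x hx => ?_
    obtain ⟨k, hk, rfl⟩ := List.mem_map.1 hx
    obtain ⟨u, hu⟩ := G.conj_xg_eq hm (G.simpleF k)
    rw [Function.comp_apply, MulAut.conj_apply,
      show T.nPar G b (fun _ => (1 : F)) * G.xg (D.simple k) (1 : F) * (T.nPar G b (fun _ => (1 : F)))⁻¹ = _ from hu 1]
    refine G.xg_mem_pos ?_ _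
    rw [T.perm_nPar_one h, T.wJ_eq h, G.isPosRoot_iff]
    refine ⟨not_lt.1 fun hlt => hne ?_, Fin.is_lt _⟩
    have hcls := (h.cls_iff b (G.simpleF k)).2 ⟨(G.isPosRoot_iff.1 (G.isPosRoot_simple k.2)).1, hlt⟩
    exact h.disjoint a b k hk ((T.mem_cls_simple h).1 hcls)
  exact T.pX_ne_one h (F := F) a (by
    have h7 := (Subgroup.eq_bot_iff_forall _).1 G.pos_inf_neg _ ⟨h4, h3⟩
    rw [conj_eq_one_iff] at h7
    rwa [pP, orbParam_one] at h7)

end generic

/-! ### ³D₄ -/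

section D4

variable {K : Type*} [Field K] [Fintype K] {q : ℕ} (f : K →+* K) (hf : ∀ x, f x = x ^ q)
  (hK : Fintype.card K = q ^ 3)

theorem topD4 : chkTop graphD4 goodD4 graphD4.top ∧ chkTop graphD4 goodD4 graphD4.top.reverse := by
  refine ⟨?_, ?_⟩ <;> unfold chkTop <;> decide +kernel

theorem cartD4_vals : chevD4.cartan 0 (chevD4.simple 0) = 2 ∧ chevD4.cartan 2 (chevD4.simple 0) = 0 ∧
    chevD4.cartan 3 (chevD4.simple 0) = 0 ∧ chevD4.cartan 1 (chevD4.simple 0) = -1 ∧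
    chevD4.cartan 1 (chevD4.simple 1) = 2 := by decide +kernel

theorem repD4 : graphD4.rep 0 = ⟨0, by decide⟩ ∧ graphD4.rep 1 = ⟨1, by decide⟩ := by decide +kernel

include hf hK

theorem out_twistedD4 (p : ℕ) [Fact p.Prime] [CharP K p] :
    Nat.card (Cfsg.Out ↥(twistedD4 K q)) = Nat.card (K ≃+* K) := by
  rw [twistedD4_eq f hf hK]
  obtain ⟨hopp, hopp'⟩ := isOpp_word okD4 coxD4 f topD4.1 topD4.2
  obtain ⟨o0, o1, i0, i2, i3⟩ := orbD4
  obtain ⟨c00, c20, c30, c10, c11⟩ := cartD4_vals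
  obtain ⟨r0, r1⟩ := repD4
  have hall : ∀ t : K, InK graphD4 f 0 t := fun t => period_D4 f hf hK t
  have a0 : ∀ t : K, graphD4.orbParam f 0 t ⟨0, by decide⟩ = t := fun t => by
    rw [GraphData.orbParam, i0, Function.iterate_zero_apply]
  have a1 : ∀ t : K, graphD4.orbParam f 1 t ⟨1, by decide⟩ = t := fun t => by
    rw [GraphData.orbParam, o1, List.idxOf_cons_self, Function.iterate_zero_apply]
  have hchi00 : ∀ t : K, chi graphD4 f 0 0 t = t ^ 2 := fun t => by
    simp [chi, o0, r0, a0, c00, c20, c30, zpow_ofNat]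
  have hchi10 : ∀ t : K, chi graphD4 f 1 0 t = t⁻¹ := fun t => by
    simp [chi, o1, r0, a1, c10]
  refine (card_out_twist okD4 coxD4 f (Chev.chkDec_of_mem (by simp)) (fun σ x => by rw [hf, hf, map_pow]) hopp hopp'
    p (kerFix_D4 f hf hK) 0 hall ?_ ?_).trans (one_mul _)
  · intro θ hU hV j
    have hlen : ∀ i k : Fin 2, q ^ graphD4.len i = q ^ graphD4.len k → i = k := by
      intro i k e
      have e' := Nat.pow_right_injective (one_lt_q f hf hK three_pos) e
      clear e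
      revert e'
      revert i k
      decide +kernel
    constructor
    · obtain ⟨k, hk⟩ := exists_pos_map okD4 coxD4 f hopp hopp' hU hV j
      have e := card_im θ ((X1_le_U1 okD4 coxD4 f j).trans (TwistData.U1_le_G1 _))
      rw [hk] at e
      have ek : k = j := hlen k j ((hX_D4 f hf hK k).symm.trans (e.trans (hX_D4 f hf hK j)))
      exact ek ▸ hk
    · obtain ⟨k, hk⟩ := exists_neg_map okD4 coxD4 f hU hV j
      have e := card_im θ ((tY_le_V okD4 coxD4 f j).trans inf_le_right)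
      rw [hk, card_cj, card_cj] at e
      have ek : k = j := hlen k j ((hX_D4 f hf hK k).symm.trans (e.trans (hX_D4 f hf hK j)))
      exact ek ▸ hk
  · intro θ φ ψ A h1
    obtain ⟨σ, hσ⟩ := exists_sigma okD4 coxD4 f A h1 0 hall hchi00
    refine ⟨σ, fun j t ht => ?_⟩
    change Fin 2 at j
    obtain rfl | rfl : j = 0 ∨ j = 1 := by omega
    · exact hσ t
    · exact sigma_link okD4 coxD4 f A h1 (fun t _ => hchi10 t) (fun t _ => hσ t) t ht

end D4

/-! ### ²E₆ -/

section E6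

variable {K : Type*} [Field K] [Fintype K] {q : ℕ} (f : K →+* K) (hf : ∀ x, f x = x ^ q)
  (hK : Fintype.card K = q ^ 2)

theorem topE6 : chkTop graphE6 goodE6 graphE6.top ∧ chkTop graphE6 goodE6 graphE6.top.reverse := by
  refine ⟨?_, ?_⟩ <;> unfold chkTop <;> decide +kernel

theorem cartE6_vals : chevE6.cartan 0 (chevE6.simple 0) = 2 ∧ chevE6.cartan 5 (chevE6.simple 0) = 0 ∧
    chevE6.cartan 2 (chevE6.simple 0) = -1 ∧ chevE6.cartan 4 (chevE6.simple 0) = 0 ∧
    chevE6.cartan 3 (chevE6.simple 2) = -1 ∧ chevE6.cartan 1 (chevE6.simple 3) = -1 := by decide +kernel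

theorem repE6 : graphE6.rep 0 = ⟨0, by decide⟩ ∧ graphE6.rep 1 = ⟨2, by decide⟩ ∧
    graphE6.rep 2 = ⟨3, by decide⟩ ∧ graphE6.rep 3 = ⟨1, by decide⟩ := by decide +kernel

theorem orb_commE6 : ∀ p ∈ [((0 : Fin 4), (2 : Fin 4)), (0, 3), (1, 3)], ∀ a ∈ graphE6.orb p.1,
    ∀ b ∈ graphE6.orb p.2, chevE6.simple b ≠ chevE6.neg (chevE6.simple a) ∧
      chevE6.commTerms (chevE6.simple a) (chevE6.simple b) = [] := by decide +kernel

/-- An entry of a sparse matrix at parameter one. -/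
def coefOne (L : SPoly) (i j : ℕ) : ℤ :=
  (L.map fun e => if i = e.1.1 ∧ j = e.1.2.1 then e.2 else 0).sum

theorem coef_noncomm : coefOne (TwinE6.orbSP [42, 37, 39]) 2 34 - coefOne (TwinE6.orbSP [39, 42, 37]) 2 34 = -1 := by
  decide +kernel

include hf hK

theorem noncomm_E6 : ¬ Commute (pP graphE6 goodE6 f 1 (1 : K)) (pP graphE6 goodE6 f 2 (1 : K)) := by
  obtain ⟨o0, o1, o2, o3⟩ := orbE6
  obtain ⟨p1, p2, p3, p4, p5, p6, -⟩ := TwinE6.simpleNum
  intro hc
  have hr : ∀ r ∈ [42, 37, 39], r < chevE6.nroots ∧ chevE6.negIdx.getD r 0 ≠ r ∧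
      SPoly.inRange (52 + 26) (xSP chevE6 r) = true := fun r hr => by
    have h1 := List.all_eq_true.1 TwinE6.orb_range.1 r (by
      simp only [List.mem_cons, List.not_mem_nil, or_false] at hr
      rcases hr with rfl | rfl | rfl <;> simp)
    simp only [Bool.and_eq_true, decide_eq_true_eq] at h1
    refine ⟨?_, h1⟩
    simp only [List.mem_cons, List.not_mem_nil, or_false] at hr
    rcases hr with rfl | rfl | rfl <;> decide
  have eA : ([42, 37, 39].map fun r => goodE6.xg r (1 : K)).prod =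
      pP graphE6 goodE6 f 1 1 * pP graphE6 goodE6 f 2 1 := by
    simp [pP, GraphData.pX, GraphData.orbProd, o1, o2, orbParam_one, p3, p4, p5, mul_assoc]
  have eB : ([39, 42, 37].map fun r => goodE6.xg r (1 : K)).prod =
      pP graphE6 goodE6 f 2 1 * pP graphE6 goodE6 f 1 1 := by
    simp [pP, GraphData.pX, GraphData.orbProd, o1, o2, orbParam_one, p3, p4, p5, mul_assoc]
  have e1 := TwinE6.eval_orbSP [42, 37, 39] hr (1 : K)
  have e2 := TwinE6.eval_orbSP [39, 42, 37] (fun r hr' => hr r (by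
    simp only [List.mem_cons, List.not_mem_nil, or_false] at hr' ⊢; tauto)) (1 : K)
  rw [eA] at e1
  rw [eB, ← hc.eq, ← e1] at e2
  have e3 := congrFun (congrFun e2 (2 : Fin (52 + 26))) (34 : Fin (52 + 26))
  have hco : ∀ (L : SPoly), SPoly.eval (52 + 26) L (1 : K) (2 : Fin (52 + 26)) (34 : Fin (52 + 26)) =
      ((coefOne L 2 34 : ℤ) : K) := fun L => by
    rw [SPoly.eval_apply, coefOne]
    show _ = Int.castRingHom K _
    rw [map_list_sum, List.map_map]
    refine congrArg List.sum (List.map_congr_left fun e _ => ?_)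
    simp only [Function.comp_apply, Int.coe_castRingHom, one_pow, mul_one, apply_ite (Int.cast : ℤ → K), Int.cast_zero]
    rfl
  rw [hco, hco] at e3
  have := congrArg (Int.cast : ℤ → K) coef_noncomm
  rw [Int.cast_sub, e3, sub_self] at this
  simp at this

theorem X1_commute_E6 {a b : Fin 4} (hab : (a, b) ∈ [((0 : Fin 4), (2 : Fin 4)), (0, 3), (1, 3)]) :
    ∀ x ∈ (tdE6 f).X1 a, ∀ y ∈ (tdE6 f).X1 b, Commute x y := by
  intro x hx y hy
  obtain ⟨c, -, rfl⟩ := (graphE6.mem_X1_iff okE6 coxE6 f).1 hx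
  obtain ⟨c', -, rfl⟩ := (graphE6.mem_X1_iff okE6 coxE6 f).1 hy
  refine Commute.list_prod_left _ _ fun u hu => Commute.list_prod_right _ _ fun v hv => ?_
  obtain ⟨k, hk, rfl⟩ := List.mem_map.1 hu
  obtain ⟨l, hl, rfl⟩ := List.mem_map.1 hv
  obtain ⟨hne, hc⟩ := orb_commE6 (a, b) hab k hk l hl
  exact Good.xg_commute (G := goodE6) (goodE6.simple_lt k.2) (goodE6.simple_lt l.2) hne hc _ _

/-- A permutation of the orbit groups induced by an automorphism is trivial. -/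
theorem node_E6 {θ : ↥(tG okE6 coxE6 f) ≃* ↥(tG okE6 coxE6 f)} (π : Fin 4 → Fin 4)
    (hπ : ∀ j, im θ ((tdE6 f).X1 j) = (tdE6 f).X1 (π j)) : ∀ j, π j = j := by
  have hle : ∀ j, (tdE6 f).X1 j ≤ tG okE6 coxE6 f := fun j =>
    (X1_le_U1 okE6 coxE6 f j).trans (TwistData.U1_le_G1 _)
  have hinj : Function.Injective π := node_inj okE6 coxE6 f _ hle π hπ (X1_injective okE6 coxE6 f)
  have hlen : ∀ j, graphE6.len (π j) = graphE6.len j := fun j => by
    have e := card_im θ (hle j)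
    rw [hπ j] at e
    exact Nat.pow_right_injective (one_lt_q f hf hK two_pos) ((hX_E6 f hf hK _).symm.trans (e.trans (hX_E6 f hf hK j)))
  have hcm := fun {a b : Fin 4} (hab : (a, b) ∈ [((0 : Fin 4), (2 : Fin 4)), (0, 3), (1, 3)]) =>
    commute_transfer okE6 coxE6 f _ hle π hπ (X1_commute_E6 f hf hK hab)
  have hnc : ∀ a b : Fin 4, (a, b) ∈ [((0 : Fin 4), (2 : Fin 4)), (0, 3), (1, 3)] →
      ¬ ((π a = 1 ∧ π b = 2) ∨ (π a = 2 ∧ π b = 1)) := by
    intro a b hab hor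
    have h1 : pP graphE6 goodE6 f 1 (1 : K) ∈ (tdE6 f).X1 1 :=
      (mem_X1_pP okE6 coxE6 f).2 ⟨1, InK.one f _, rfl⟩
    have h2 : pP graphE6 goodE6 f 2 (1 : K) ∈ (tdE6 f).X1 2 :=
      (mem_X1_pP okE6 coxE6 f).2 ⟨1, InK.one f _, rfl⟩
    rcases hor with ⟨ea, eb⟩ | ⟨ea, eb⟩
    · exact noncomm_E6 f hf hK (hcm hab _ (ea.symm ▸ h1) _ (eb.symm ▸ h2))
    · exact noncomm_E6 f hf hK (hcm hab _ (ea.symm ▸ h2) _ (eb.symm ▸ h1)).symm
  have key : ∀ π : Fin 4 → Fin 4, Function.Injective π → (∀ j, graphE6.len (π j) = graphE6.len j) →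
      (∀ a b : Fin 4, (a, b) ∈ [((0 : Fin 4), (2 : Fin 4)), (0, 3), (1, 3)] →
        ¬ ((π a = 1 ∧ π b = 2) ∨ (π a = 2 ∧ π b = 1))) → ∀ j, π j = j := by
    unfold Function.Injective
    decide +kernel
  exact key π hinj hlen hnc

theorem out_twistedE6 (p : ℕ) [Fact p.Prime] [CharP K p] :
    Nat.card (Cfsg.Out ↥(twistedE6 K q)) = Nat.gcd 3 (q + 1) * Nat.card (K ≃+* K) := by
  rw [twistedE6_eq f hf hK]
  obtain ⟨hopp, hopp'⟩ := isOpp_word okE6 coxE6 f topE6.1 topE6.2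
  obtain ⟨o0, o1, o2, o3⟩ := orbE6
  obtain ⟨i0, i5, i2, i4⟩ := idxE6
  obtain ⟨c00, c50, c20, c40, c32, c13⟩ := cartE6_vals
  obtain ⟨r0, r1, r2, r3⟩ := repE6
  have hall : ∀ t : K, InK graphE6 f 0 t := fun t => period_E6 f hf hK t
  have a0 : ∀ t : K, graphE6.orbParam f 0 t ⟨0, by decide⟩ = t := fun t => by
    rw [GraphData.orbParam, i0, Function.iterate_zero_apply]
  have a2 : ∀ t : K, graphE6.orbParam f 1 t ⟨2, by decide⟩ = t := fun t => by
    rw [GraphData.orbParam, i2, Function.iterate_zero_apply]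
  have a3 : ∀ t : K, graphE6.orbParam f 2 t ⟨3, by decide⟩ = t := fun t => by
    rw [GraphData.orbParam, o2, List.idxOf_cons_self, Function.iterate_zero_apply]
  have a1 : ∀ t : K, graphE6.orbParam f 3 t ⟨1, by decide⟩ = t := fun t => by
    rw [GraphData.orbParam, o3, List.idxOf_cons_self, Function.iterate_zero_apply]
  refine card_out_twist okE6 coxE6 f (Chev.chkDec_of_mem (by simp)) (fun σ x => by rw [hf, hf, map_pow]) hopp hopp'
    p (kerFix_E6 f hf hK) 0 hall ?_ ?_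
  · intro θ hU hV
    choose π hπ using exists_pos_map okE6 coxE6 f hopp hopp' hU hV
    choose ρ hρ using exists_neg_map okE6 coxE6 f hU hV
    have e1 := node_E6 f hf hK π hπ
    -- the opposite groups: conjugate by the opposition
    set g : ↥(tG okE6 coxE6 f) := ⟨_, (tdE6 f).N0_le_G1 hopp.mem⟩
    set θ' := ((MulAut.conj g).trans θ).trans (MulAut.conj g⁻¹)
    have e2 := node_E6 f hf hK (θ := θ') ρ fun j => by
      have hX : (tdE6 f).X1 j ≤ tG okE6 coxE6 f := (X1_le_U1 okE6 coxE6 f j).trans (TwistData.U1_le_G1 _)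
      rw [im_trans, im_trans, im_conj g hX, im_conj g⁻¹ (im_le θ _)]
      show cj ((g : GL chevE6.Idx K))⁻¹ (im θ (cj (g : GL chevE6.Idx K) _)) = _
      rw [card_cj_X1 okE6 coxE6 f hopp j, hρ j, ← card_cj_X1 okE6 coxE6 f hopp (ρ j), ← cj_mul, inv_mul_cancel,
        cj_one]
    intro j
    exact ⟨(hπ j).trans (congrArg _ (e1 j)), (hρ j).trans (congrArg _ (e2 j))⟩
  · intro θ φ ψ A h1
    have hself : ∀ t : K, chi graphE6 f 0 0 t = t ^ 2 := fun t => by
      simp [chi, o0, r0, a0, c00, c50, zpow_ofNat]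
    have h10 : ∀ t : K, chi graphE6 f 1 0 t = t⁻¹ := fun t => by simp [chi, o1, r0, a2, c20, c40]
    have h21 : ∀ t : K, chi graphE6 f 2 1 t = t⁻¹ := fun t => by simp [chi, o2, r1, a3, c32]
    have h32 : ∀ t : K, chi graphE6 f 3 2 t = t⁻¹ := fun t => by simp [chi, o3, r2, a1, c13]
    obtain ⟨σ, hσ⟩ := exists_sigma okE6 coxE6 f A h1 0 hall hself
    have s1 := sigma_link okE6 coxE6 f A h1 (i := 1) (fun t _ => h10 t) (fun t _ => hσ t)
    have s2 := sigma_link okE6 coxE6 f A h1 (i := 2) (fun t _ => h21 t) s1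
    have s3 := sigma_link okE6 coxE6 f A h1 (i := 3) (fun t _ => h32 t) s2
    refine ⟨σ, fun j t ht => ?_⟩
    change Fin 4 at j
    obtain rfl | rfl | rfl | rfl : j = 0 ∨ j = 1 ∨ j = 2 ∨ j = 3 := by omega
    · exact hσ t
    · exact s1 t ht
    · exact s2 t ht
    · exact s3 t ht

end E6

end Cfsg.Agent.H64.Twist
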