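import Cfsg.Agent.H64.Twist.Roots

/-!
# Parameters of an automorphism of a twisted group fixing every orbit group
-/

set_option autoImplicit false

namespace Cfsg.Agent.H64.Twist

open Cfsg.Lie Cfsg.Agent.H46 Cfsg.Agent.H47 Cfsg.Agent.H64.Opp Cfsg.Agent.H64.AutChev
open scoped Matrix MatrixGroups

variable {D : ChevalleyDatum} {T : GraphData D} {G : Good D} {F : Type*} [Field F]
variable (h : T.Ok G) (C : CoxData G) (f : F →+* F)

/-- `t` is a parameter of the orbit `j`. -/
def InK (T : GraphData D) (f : F →+* F) (j : Fin T.m) (t : F) : Prop := f^[T.len j] t = t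

/-- The positive orbit element with parameter `t`. -/
noncomputable def pP (T : GraphData D) (G : Good D) (f : F →+* F) (j : Fin T.m) (t : F) : GL D.Idx F :=
  T.pX G j (T.orbParam f j t)

/-- The negative orbit element with parameter `t`. -/
noncomputable def pQ (T : GraphData D) (G : Good D) (f : F →+* F) (j : Fin T.m) (t : F) : GL D.Idx F :=
  T.nX G j (T.orbParam f j t)

/-- The monomial orbit element with parameter `t`. -/
noncomputable def pN (T : GraphData D) (G : Good D) (f : F →+* F) (j : Fin T.m) (t : F) : GL D.Idx F :=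
  T.nPar G j (T.orbParam f j t)

/-- An automorphism as a map of the linear group. -/
noncomputable def ap (θ : ↥(tG h C f) ≃* ↥(tG h C f)) (g : GL D.Idx F) : GL D.Idx F :=
  open Classical in if hg : g ∈ tG h C f then ((θ ⟨g, hg⟩ : ↥(tG h C f)) : GL D.Idx F) else 1

theorem iterate_inv (n : ℕ) (a : F) : f^[n] a⁻¹ = (f^[n] a)⁻¹ := by
  induction n with
  | zero => rfl
  | succ n ih => rw [Function.iterate_succ_apply', Function.iterate_succ_apply', ih, map_inv₀]

theorem InK.one (j : Fin T.m) : InK T f j (1 : F) := iterate_map_one f _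

theorem InK.zero (j : Fin T.m) : InK T f j (0 : F) := iterate_map_zero f _

theorem InK.add {j : Fin T.m} {a b : F} (ha : InK T f j a) (hb : InK T f j b) : InK T f j (a + b) := by
  rw [InK, iterate_map_add, ha, hb]

theorem InK.mul {j : Fin T.m} {a b : F} (ha : InK T f j a) (hb : InK T f j b) : InK T f j (a * b) := by
  rw [InK, iterate_map_mul, ha, hb]

theorem InK.neg {j : Fin T.m} {a : F} (ha : InK T f j a) : InK T f j (-a) := by
  rw [InK, iterate_map_neg, ha]

theorem InK.inv {j : Fin T.m} {a : F} (ha : InK T f j a) : InK T f j a⁻¹ := by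
  rw [InK, iterate_inv, ha]

theorem orbParam_one (j : Fin T.m) : T.orbParam f j (1 : F) = fun _ => 1 :=
  funext fun _ => iterate_map_one f _

theorem orbParam_ne_zero (j : Fin T.m) {t : F} (ht : t ≠ 0) (k : Fin D.rank) : T.orbParam f j t k ≠ 0 :=
  fun e => ht (Function.Injective.iterate f.injective _ (e.trans (iterate_map_zero f _).symm))

include h

theorem orbParam_rep {j : Fin T.m} (t : F) : T.orbParam f j t (T.rep j) = t := by
  rw [GraphData.orbParam]
  have := T.idxOf_orb h (j := j) (h.len_pos j).1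
  rw [Function.iterate_zero_apply] at this
  rw [this, Function.iterate_zero_apply]

theorem pP_add (j : Fin T.m) (a b : F) : pP T G f j (a + b) = pP T G f j a * pP T G f j b := by
  simp only [pP, GraphData.pX, GraphData.orbProd]
  rw [← prod_map_mul_of_commute _ _ _ (h.nodup j) fun x hx y hy hxy => (T.orbProd_commute h hx hy hxy _ _).1]
  refine congrArg List.prod (List.map_congr_left fun k _ => ?_)
  rw [G.xg_add, GraphData.orbParam, iterate_map_add]
  rfl

theorem pP_zero (j : Fin T.m) : pP T G f j (0 : F) = 1 := by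
  have := pP_add h f j (0 : F) 0
  rw [add_zero] at this
  exact left_eq_mul.1 this

theorem pP_inj (j : Fin T.m) {a b : F} (e : pP T G f j a = pP T G f j b) : a = b := by
  have := T.orbProd_inj h e _ (T.rep_mem_orb h j)
  rwa [orbParam_rep h f, orbParam_rep h f] at this

theorem pX_eq_pP {j : Fin T.m} {c : Fin D.rank → F} (hc : T.Sat f j c) :
    InK T f j (c (T.rep j)) ∧ T.pX G j c = pP T G f j (c (T.rep j)) := by
  have ht : InK T f j (c (T.rep j)) := by rw [InK, ← (T.sat_iterate h f hc _).2, T.orb_period h]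
  refine ⟨ht, congrArg List.prod (List.map_congr_left fun k hk => ?_)⟩
  obtain ⟨s, hs, rfl⟩ := List.mem_map.1 hk
  rw [T.orbParam_apply h f ht (List.mem_range.1 hs).le, (T.sat_iterate h f hc s).2]

theorem nX_eq_pQ {j : Fin T.m} {c : Fin D.rank → F} (hc : T.Sat f j c) :
    InK T f j (c (T.rep j)) ∧ T.nX G j c = pQ T G f j (c (T.rep j)) := by
  have ht : InK T f j (c (T.rep j)) := by rw [InK, ← (T.sat_iterate h f hc _).2, T.orb_period h]
  refine ⟨ht, congrArg List.prod (List.map_congr_left fun k hk => ?_)⟩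
  obtain ⟨s, hs, rfl⟩ := List.mem_map.1 hk
  rw [T.orbParam_apply h f ht (List.mem_range.1 hs).le, (T.sat_iterate h f hc s).2]

theorem mem_X1_pP {j : Fin T.m} {g : GL D.Idx F} :
    g ∈ (T.tdata h C f).X1 j ↔ ∃ t, InK T f j t ∧ g = pP T G f j t := by
  rw [T.mem_X1_iff h C f]
  constructor
  · rintro ⟨c, hc, rfl⟩
    exact ⟨_, pX_eq_pP h f hc⟩
  · rintro ⟨t, ht, rfl⟩
    exact ⟨_, T.sat_orbParam h f ht, rfl⟩

theorem mem_tY_pQ {j : Fin T.m} {g : GL D.Idx F} :
    g ∈ tY h C f j ↔ ∃ t, InK T f j t ∧ g = pQ T G f j t := by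
  rw [mem_tY h C f]
  constructor
  · rintro ⟨c, hc, rfl⟩
    exact ⟨_, nX_eq_pQ h f hc⟩
  · rintro ⟨t, ht, rfl⟩
    exact ⟨_, T.sat_orbParam h f ht, rfl⟩

theorem pQ_inj (j : Fin T.m) {a b : F} (e : pQ T G f j a = pQ T G f j b) : a = b := by
  rw [pQ, pQ, T.nX_eq_conj h, T.nX_eq_conj h, mul_left_inj, mul_right_inj] at e
  have := T.orbProd_inj h e _ (T.rep_mem_orb h j)
  rwa [neg_inj, orbParam_rep h f, orbParam_rep h f] at this

theorem pP_mem {j : Fin T.m} {t : F} (ht : InK T f j t) : pP T G f j t ∈ tG h C f :=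
  (T.tdata h C f).U1_le_G1 (X1_le_U1 h C f j ((mem_X1_pP h C f).2 ⟨t, ht, rfl⟩))

theorem pQ_mem {j : Fin T.m} {t : F} (ht : InK T f j t) : pQ T G f j t ∈ tG h C f :=
  (tY_le_V h C f j ((mem_tY_pQ h C f).2 ⟨t, ht, rfl⟩)).2

theorem pN_eq (j : Fin T.m) (t : F) :
    pN T G f j t = pP T G f j t * pQ T G f j (-t⁻¹) * pP T G f j t := by
  rw [pN, T.nPar_eq_gen h, pP, pQ]
  congr 3
  funext k
  rw [GraphData.orbParam, GraphData.orbParam, iterate_map_neg, iterate_inv]

theorem pN_mem {j : Fin T.m} {t : F} (ht : InK T f j t) : pN T G f j t ∈ tG h C f := by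
  rw [pN_eq h f]
  exact mul_mem (mul_mem (pP_mem h C f ht) (pQ_mem h C f (InK.neg f (InK.inv f ht)))) (pP_mem h C f ht)

theorem pN_one (j : Fin T.m) : pN T G f j (1 : F) = (T.tdata h C f).nS j := by
  rw [pN, orbParam_one, T.tdata_nS]

/-- The torus element of an orbit. -/
theorem pH_eq (j : Fin T.m) (t : F) :
    (T.orbProd j fun k : Fin D.rank => G.hg (D.simple k) (T.orbParam f j t k)) =
      pN T G f j t * (pN T G f j 1)⁻¹ := by
  rw [T.orbHg_eq h j, pN, pN, orbParam_one]

theorem cj_H0_X1 {k : GL D.Idx F} (hk : k ∈ (T.tdata h C f).H0) (j : Fin T.m) :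
    cj k ((T.tdata h C f).X1 j) = (T.tdata h C f).X1 j := by
  have key : ∀ k ∈ (T.tdata h C f).H0, ∀ x ∈ (T.tdata h C f).X1 j, k * x * k⁻¹ ∈ (T.tdata h C f).X1 j := by
    intro k hk x hx
    obtain ⟨z, hz, rfl⟩ := hk
    obtain ⟨c, hc, rfl⟩ := (T.mem_X1_iff h C f).1 hx
    refine (T.mem_X1_iff h C f).2 ⟨fun a => (G.torusVal z (D.simple a) : F) * c a, fun a ha => ?_, ?_⟩
    · show _ * _ = f (_ * _)
      rw [map_mul, ← hc a ha, T.torusVal_rho h f z hz]
      rfl
    · rw [GraphData.pX, ← MulAut.conj_apply, GraphData.orbProd, map_list_prod, List.map_map]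
      exact congrArg List.prod (List.map_congr_left fun a _ => G.torus_conj_xg z (G.simple_lt a.2) (c a))
  refine cj_of_mem (Subgroup.mem_normalizer_iff.2 fun x => ⟨key k hk x, fun hx => ?_⟩)
  have := key _ (inv_mem hk) _ hx
  simpa [mul_assoc] using this

theorem cj_pN_X1 {j : Fin T.m} {t : F} (ht : InK T f j t) (h0 : t ≠ 0) :
    cj (pN T G f j t) ((T.tdata h C f).X1 j) = tY h C f j ∧
      cj (pN T G f j t) (tY h C f j) = (T.tdata h C f).X1 j := by
  set s := (T.tdata h C f).nS j with hs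
  set k := (T.orbProd j fun a : Fin D.rank => G.hg (D.simple a) (T.orbParam f j t a)) with hk
  have hkH : k ∈ (T.tdata h C f).H0 :=
    T.orb_hg_mem_fixTorus h f j (T.sat_orbParam h f ht) fun a _ => orbParam_ne_zero f j h0 a
  have e : pN T G f j t = k * s := by rw [hk, pH_eq h f, pN_one h C f, ← hs]; group
  have hY : ∀ a ∈ (T.tdata h C f).H0, cj a (tY h C f j) = tY h C f j := fun a ha => by
    show cj a (cj s _) = cj s _
    rw [← cj_mul, show a * s = s * (s⁻¹ * a * s) by group, cj_mul,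
      cj_H0_X1 h C f ((T.tdata h C f).H0_conj' j ha)]
  constructor
  · rw [e, cj_mul, hY k hkH]
  · rw [e, cj_mul]
    show cj k (cj s (cj s _)) = _
    rw [← cj_mul s s, cj_H0_X1 h C f ((T.tdata h C f).nS_sq j), cj_H0_X1 h C f hkH]

/-- If `x(a) x₋(c) x(a)` conjugates `X¹` onto `Y¹` then `c = -1/a`. -/
theorem orbit_opposite {j : Fin T.m} {a c : F} (ha : InK T f j a) (hc : InK T f j c) (hc0 : c ≠ 0)
    (he : cj (pP T G f j a * pQ T G f j c * pP T G f j a) ((T.tdata h C f).X1 j) = tY h C f j) :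
    c = -a⁻¹ := by
  set d := a + c⁻¹ with hd
  have hdK : InK T f j d := InK.add f ha (InK.inv f hc)
  have e : pP T G f j a * pQ T G f j c * pP T G f j a =
      pP T G f j d * pN T G f j (-c⁻¹) * pP T G f j d := by
    have e1 : pP T G f j a = pP T G f j d * pP T G f j (-c⁻¹) := by
      rw [← pP_add h f]; congr 1; rw [hd]; ring
    have e2 : pP T G f j a = pP T G f j (-c⁻¹) * pP T G f j d := by
      rw [← pP_add h f]; congr 1; rw [hd]; ring
    rw [pN_eq h f, inv_neg, inv_inv, _root_.neg_neg,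
      show pP T G f j a * pQ T G f j c * pP T G f j a =
        pP T G f j d * pP T G f j (-c⁻¹) * pQ T G f j c * (pP T G f j (-c⁻¹) * pP T G f j d) by rw [← e1, ← e2]]
    group
  have hdX := (mem_X1_pP h C f).2 ⟨d, hdK, rfl⟩
  rw [e, cj_mul, cj_mul, cj_of_mem (Subgroup.le_normalizer hdX),
    (cj_pN_X1 h C f (InK.neg f (InK.inv f hc)) (neg_ne_zero.2 (inv_ne_zero hc0))).1] at he
  have hd0 : d = 0 := by
    by_contra hne
    have hx1 : pP T G f j d ≠ 1 := fun e1 => hne (pP_inj h f j (e1.trans (pP_zero h f j).symm))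
    refine tY_ne_bot h C f j (le_bot_iff.1 ?_)
    rw [← V_inf_cj_X1 h C f j hdX hx1]
    refine le_inf (tY_le_V h C f j) ?_
    conv_lhs => rw [← he]
    exact Subgroup.map_mono (Subgroup.map_mono (X1_le_U1 h C f j))
  have ha0 : a = -c⁻¹ := eq_neg_of_add_eq_zero_left hd0
  rw [ha0, inv_neg, inv_inv, _root_.neg_neg]

section aut

variable {θ : ↥(tG h C f) ≃* ↥(tG h C f)}

theorem ap_mul {a b : GL D.Idx F} (ha : a ∈ tG h C f) (hb : b ∈ tG h C f) :
    ap h C f θ (a * b) = ap h C f θ a * ap h C f θ b := by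
  rw [ap, ap, ap, dif_pos ha, dif_pos hb, dif_pos (mul_mem ha hb)]
  exact congrArg Subtype.val (map_mul θ ⟨a, ha⟩ ⟨b, hb⟩)

theorem ap_inv {a : GL D.Idx F} (ha : a ∈ tG h C f) : ap h C f θ a⁻¹ = (ap h C f θ a)⁻¹ := by
  rw [ap, ap, dif_pos ha, dif_pos (inv_mem ha)]
  exact congrArg Subtype.val (map_inv θ ⟨a, ha⟩)

theorem ap_coe (g : ↥(tG h C f)) : ap h C f θ (g : GL D.Idx F) = ((θ g : ↥(tG h C f)) : GL D.Idx F) := by
  rw [ap, dif_pos g.2]

theorem ap_inj {a b : GL D.Idx F} (ha : a ∈ tG h C f) (hb : b ∈ tG h C f)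
    (e : ap h C f θ a = ap h C f θ b) : a = b := by
  rw [ap, ap, dif_pos ha, dif_pos hb] at e
  exact congrArg Subtype.val (θ.injective (Subtype.ext e))

variable (θ)

/-- `θ` is given by `φ` and `ψ` on the orbit elements. -/
structure TActs (φ ψ : Fin T.m → F → F) : Prop where
  mem : ∀ j t, InK T f j t → InK T f j (φ j t)
  memN : ∀ j t, InK T f j t → InK T f j (ψ j t)
  pos : ∀ j t, InK T f j t → ap h C f θ (pP T G f j t) = pP T G f j (φ j t)
  neg : ∀ j t, InK T f j t → ap h C f θ (pQ T G f j t) = pQ T G f j (ψ j t)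
  im_pos : ∀ j, im θ ((T.tdata h C f).X1 j) = (T.tdata h C f).X1 j
  im_neg : ∀ j, im θ (tY h C f j) = tY h C f j

theorem exists_tActs (hP : ∀ j, im θ ((T.tdata h C f).X1 j) = (T.tdata h C f).X1 j)
    (hN : ∀ j, im θ (tY h C f j) = tY h C f j) : ∃ φ ψ, TActs h C f θ φ ψ := by
  classical
  have h1 : ∀ j t, ∃ u, InK T f j t → InK T f j u ∧ ap h C f θ (pP T G f j t) = pP T G f j u := by
    intro j t
    by_cases ht : InK T f j t
    · have hm := apply_mem_im θ (y := ⟨_, pP_mem h C f ht⟩) ((mem_X1_pP h C f).2 ⟨t, ht, rfl⟩)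
      rw [hP, mem_X1_pP h C f] at hm
      obtain ⟨u, hu, e⟩ := hm
      exact ⟨u, fun _ => ⟨hu, by rw [← e, ← ap_coe h C f]⟩⟩
    · exact ⟨0, fun h' => absurd h' ht⟩
  have h2 : ∀ j t, ∃ u, InK T f j t → InK T f j u ∧ ap h C f θ (pQ T G f j t) = pQ T G f j u := by
    intro j t
    by_cases ht : InK T f j t
    · have hm := apply_mem_im θ (y := ⟨_, pQ_mem h C f ht⟩) ((mem_tY_pQ h C f).2 ⟨t, ht, rfl⟩)
      rw [hN, mem_tY_pQ h C f] at hm
      obtain ⟨u, hu, e⟩ := hm
      exact ⟨u, fun _ => ⟨hu, by rw [← e, ← ap_coe h C f]⟩⟩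
    · exact ⟨0, fun h' => absurd h' ht⟩
  choose φ hφ using h1
  choose ψ hψ using h2
  exact ⟨φ, ψ, fun j t ht => (hφ j t ht).1, fun j t ht => (hψ j t ht).1, fun j t ht => (hφ j t ht).2,
    fun j t ht => (hψ j t ht).2, hP, hN⟩

variable {θ} {φ ψ : Fin T.m → F → F} (A : TActs h C f θ φ ψ)

include A

theorem TActs.add {j : Fin T.m} {a b : F} (ha : InK T f j a) (hb : InK T f j b) :
    φ j (a + b) = φ j a + φ j b := by
  refine pP_inj h f j ?_
  rw [← A.pos j _ (InK.add f ha hb), pP_add h f, ap_mul h C f (pP_mem h C f ha) (pP_mem h C f hb),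
    A.pos j a ha, A.pos j b hb, ← pP_add h f]

theorem TActs.map_zero (j : Fin T.m) : φ j 0 = 0 := by
  have := TActs.add h C f A (InK.zero f j) (InK.zero f j)
  rw [add_zero] at this
  exact left_eq_add.1 this

theorem TActs.inj {j : Fin T.m} {a b : F} (ha : InK T f j a) (hb : InK T f j b) (e : φ j a = φ j b) : a = b :=
  pP_inj h f j (ap_inj h C f (pP_mem h C f ha) (pP_mem h C f hb) (by rw [A.pos j a ha, A.pos j b hb, e]))

theorem TActs.map_ne_zero {j : Fin T.m} {t : F} (ht : InK T f j t) (h0 : t ≠ 0) : φ j t ≠ 0 := fun e =>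
  h0 (TActs.inj h C f A ht (InK.zero f j) (e.trans (TActs.map_zero h C f A j).symm))

theorem TActs.map_neg {j : Fin T.m} {t : F} (ht : InK T f j t) : φ j (-t) = -(φ j t) :=
  eq_neg_of_add_eq_zero_left (by
    rw [← TActs.add h C f A (InK.neg f ht) ht, neg_add_cancel, TActs.map_zero h C f A])

theorem TActs.psi_eq {j : Fin T.m} {t : F} (ht : InK T f j t) (h0 : t ≠ 0) :
    ψ j (-t⁻¹) = -(φ j t)⁻¹ := by
  have hi : InK T f j (-t⁻¹) := InK.neg f (InK.inv f ht)
  have hc0 : ψ j (-t⁻¹) ≠ 0 := by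
    intro e
    have h1 := A.neg j _ hi
    rw [e] at h1
    have h2 : pQ T G f j (-t⁻¹) = pQ T G f j 0 := by
      have hz : pQ T G f j (0 : F) = 1 := List.prod_eq_one fun x hx => by
        obtain ⟨k, -, rfl⟩ := List.mem_map.1 hx
        rw [GraphData.orbParam, iterate_map_zero, G.xg_zero]
      refine ap_inj h C f (θ := θ) (pQ_mem h C f hi) (pQ_mem h C f (InK.zero f j)) ?_
      rw [h1, hz, ap, dif_pos (one_mem _)]
      exact (congrArg Subtype.val (map_one θ)).symm
    exact neg_ne_zero.2 (inv_ne_zero h0) (pQ_inj h f j h2)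
  refine orbit_opposite h C f (A.mem j t ht) (A.memN j _ hi) hc0 ?_
  have hg : ap h C f θ (pN T G f j t) =
      pP T G f j (φ j t) * pQ T G f j (ψ j (-t⁻¹)) * pP T G f j (φ j t) := by
    rw [pN_eq h f, ap_mul h C f (mul_mem (pP_mem h C f ht) (pQ_mem h C f hi)) (pP_mem h C f ht),
      ap_mul h C f (pP_mem h C f ht) (pQ_mem h C f hi), A.pos j t ht, A.neg j _ hi]
  have h2 := congrArg (im θ) (cj_pN_X1 h C f ht h0).1
  rw [A.im_neg, show pN T G f j t = ((⟨_, pN_mem h C f ht⟩ : ↥(tG h C f)) : GL D.Idx F) from rfl,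
    im_cj θ _ ((X1_le_U1 h C f j).trans (T.tdata h C f).U1_le_G1), A.im_pos, ← ap_coe h C f, hg] at h2
  exact h2

theorem TActs.ap_pN {j : Fin T.m} {t : F} (ht : InK T f j t) (h0 : t ≠ 0) :
    ap h C f θ (pN T G f j t) = pN T G f j (φ j t) := by
  have hi : InK T f j (-t⁻¹) := InK.neg f (InK.inv f ht)
  rw [pN_eq h f, pN_eq h f, ap_mul h C f (mul_mem (pP_mem h C f ht) (pQ_mem h C f hi)) (pP_mem h C f ht),
    ap_mul h C f (pP_mem h C f ht) (pQ_mem h C f hi), A.pos j t ht, A.neg j _ hi, TActs.psi_eq h C f A ht h0]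

end aut

/-- The value of the torus element of the orbit `i` on the orbit `j`. -/
noncomputable def chi (T : GraphData D) (f : F →+* F) (i j : Fin T.m) (t : F) : F :=
  ((T.orb i).map fun a : Fin D.rank => T.orbParam f i t a ^ D.cartan a (D.simple (T.rep j))).prod

omit h in
theorem hProd_conj (o : List (Fin D.rank)) (c : Fin D.rank → F) (hc : ∀ a ∈ o, c a ≠ 0) {r : ℕ}
    (hr : r < D.nroots) (u : F) :
    (o.map fun a : Fin D.rank => G.hg (D.simple a) (c a)).prod * G.xg r u *
        (o.map fun a : Fin D.rank => G.hg (D.simple a) (c a)).prod⁻¹ =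
      G.xg r ((o.map fun a : Fin D.rank => c a ^ D.cartan a r).prod * u) := by
  induction o generalizing u with
  | nil => simp
  | cons a o ih =>
    rw [List.map_cons, List.prod_cons, List.map_cons, List.prod_cons, mul_inv_rev,
      show ∀ x y z : GL D.Idx F, x * y * z * (y⁻¹ * x⁻¹) = x * (y * z * y⁻¹) * x⁻¹ from fun x y z => by group,
      ih (fun b hb => hc b (List.mem_cons_of_mem _ hb)) u,
      G.hg_mul_xg (G.simple_lt a.2) hr (hc a List.mem_cons_self), mul_inv_cancel_right,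
      G.pairing_simple a.2 hr, mul_assoc]

include C in
/-- Conjugation of an orbit element by the torus of another orbit. -/
theorem pH_conj {i j : Fin T.m} {t u : F} (ht : InK T f i t) (h0 : t ≠ 0) (hu : InK T f j u) :
    InK T f j (chi T f i j t * u) ∧
      pN T G f i t * (pN T G f i 1)⁻¹ * pP T G f j u * (pN T G f i t * (pN T G f i 1)⁻¹)⁻¹ =
        pP T G f j (chi T f i j t * u) := by
  have hk := T.orb_hg_mem_fixTorus h f i (T.sat_orbParam h f ht) fun a _ => orbParam_ne_zero f i h0 a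
  rw [← pH_eq h f]
  set k := (T.orbProd i fun a : Fin D.rank => G.hg (D.simple a) (T.orbParam f i t a)) with hkdef
  have hm : k * pP T G f j u * k⁻¹ ∈ (T.tdata h C f).X1 j := by
    have := Subgroup.mem_map_of_mem (MulAut.conj k).toMonoidHom
      (show pP T G f j u ∈ (T.tdata h C f).X1 j from (mem_X1_pP h C f).2 ⟨u, hu, rfl⟩)
    rw [← cj_H0_X1 h C f hk j]
    exact this
  have he : k * pP T G f j u * k⁻¹ = T.pX G j fun b : Fin D.rank =>
      ((T.orb i).map fun a : Fin D.rank => T.orbParam f i t a ^ D.cartan a (D.simple b)).prod *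
        T.orbParam f j u b := by
    rw [pP, GraphData.pX, ← MulAut.conj_apply, GraphData.orbProd, map_list_prod, List.map_map]
    exact congrArg List.prod (List.map_congr_left fun b _ =>
      hProd_conj (G := G) (T.orb i) _ (fun a _ => orbParam_ne_zero f i h0 a) (G.simple_lt b.2) _)
  obtain ⟨v, hv, hve⟩ := (mem_X1_pP h C f).1 hm
  have h3 := T.orbProd_inj h (he.symm.trans hve) _ (T.rep_mem_orb h j)
  rw [orbParam_rep h f, orbParam_rep h f] at h3
  exact ⟨h3 ▸ hv, by rw [hve, ← h3]; rfl⟩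

variable {θ : ↥(tG h C f) ≃* ↥(tG h C f)} {φ ψ : Fin T.m → F → F}

theorem TActs.torus_rel (A : TActs h C f θ φ ψ) (h1 : ∀ j, φ j 1 = 1) {i j : Fin T.m} {t u : F}
    (ht : InK T f i t) (h0 : t ≠ 0) (hu : InK T f j u) :
    φ j (chi T f i j t * u) = chi T f i j (φ i t) * φ j u := by
  obtain ⟨hv, e⟩ := pH_conj h C f ht h0 hu
  obtain ⟨hv', e'⟩ := pH_conj h C f (A.mem i t ht) (TActs.map_ne_zero h C f A ht h0) (A.mem j u hu)
  have h2 := congrArg (ap h C f θ) e
  have hn := pN_mem h C f ht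
  have hn1 := pN_mem h C f (InK.one f i)
  rw [ap_mul h C f (mul_mem (mul_mem hn (inv_mem hn1)) (pP_mem h C f hu)) (inv_mem (mul_mem hn (inv_mem hn1))),
    ap_mul h C f (mul_mem hn (inv_mem hn1)) (pP_mem h C f hu), ap_inv h C f (mul_mem hn (inv_mem hn1)),
    ap_mul h C f hn (inv_mem hn1), ap_inv h C f hn1, TActs.ap_pN h C f A ht h0,
    TActs.ap_pN h C f A (InK.one f i) one_ne_zero, h1, A.pos j u hu, A.pos j _ hv, e'] at h2
  exact (pP_inj h f j h2).symm

variable [Finite F]

/-- The parameter map of an orbit is multiplicative. -/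
theorem TActs.map_mul (A : TActs h C f θ φ ψ) (h1 : ∀ j, φ j 1 = 1) (j : Fin T.m)
    (hself : ∀ t : F, chi T f j j t = t ^ 2) {a b : F} (ha : InK T f j a) (hb : InK T f j b) :
    φ j (a * b) = φ j a * φ j b := by
  have key : ∀ t u, InK T f j t → InK T f j u → φ j (t * t * u) = φ j t * φ j t * φ j u := by
    intro t u ht hu
    by_cases h0 : t = 0
    · simp [h0, TActs.map_zero h C f A]
    · have := TActs.torus_rel h C f A h1 (i := j) ht h0 hu
      rwa [hself, hself, sq, sq] at this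
  have sq1 : ∀ t, InK T f j t → φ j (t * t) = φ j t * φ j t := by
    intro t ht
    have := key t 1 ht (InK.one f j)
    rwa [mul_one, h1, mul_one] at this
  by_cases h2 : (2 : F) = 0
  · have hsq : Function.Surjective
        (fun s : {s : F // InK T f j s} => (⟨s.1 * s.1, InK.mul f s.2 s.2⟩ : {s : F // InK T f j s})) := by
      refine Finite.injective_iff_surjective.1 fun x y e => Subtype.ext ?_
      have e' : x.1 * x.1 = y.1 * y.1 := congrArg Subtype.val e
      have : (x.1 - y.1) * (x.1 - y.1) = 0 := by linear_combination e' + (y.1 * y.1 - x.1 * y.1) * h2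
      exact sub_eq_zero.1 (mul_self_eq_zero.1 this)
    obtain ⟨⟨s, hs⟩, e⟩ := hsq ⟨a, ha⟩
    have e' : s * s = a := congrArg Subtype.val e
    rw [← e', key s b hs hb, sq1 s hs]
  · have hab := InK.mul f ha hb
    have e := key (a + b) 1 (InK.add f ha hb) (InK.one f j)
    rw [mul_one, h1, mul_one, TActs.add h C f A ha hb, show (a + b) * (a + b) = (a * a + b * b) + (a * b + a * b) by
      ring, TActs.add h C f A (InK.add f (InK.mul f ha ha) (InK.mul f hb hb)) (InK.add f hab hab),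
      TActs.add h C f A (InK.mul f ha ha) (InK.mul f hb hb), TActs.add h C f A hab hab, sq1 a ha, sq1 b hb] at e
    exact mul_left_cancel₀ h2 (by linear_combination e)

end Cfsg.Agent.H64.Twist
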