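import Cfsg.Agent.H64.Twist.Sylow
import Cfsg.Agent.H8.BNParabolic

/-!
# Automorphisms of a twisted group and the rank one subgroups
-/

set_option autoImplicit false

namespace Cfsg.Agent.H64.Twist

open Cfsg.Lie Cfsg.Agent.H46 Cfsg.Agent.H47 Cfsg.Agent.H64.Opp Cfsg.Agent.H64.AutChev
open scoped Matrix MatrixGroups

variable {D : ChevalleyDatum} {T : GraphData D} {G : Good D} {F : Type*} [Field F]
variable (h : T.Ok G) (C : CoxData G) (f : F →+* F)

/-- The fixed part of the opposite of an orbit group. -/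
noncomputable abbrev tY (h : T.Ok G) (C : CoxData G) (f : F →+* F) (j : Fin T.m) : Subgroup (GL D.Idx F) :=
  cj ((T.tdata h C f).nS j) ((T.tdata h C f).X1 j)

/-- An element of `N¹` sending every orbit to its opposite. -/
structure IsOpp (h : T.Ok G) (C : CoxData G) (f : F →+* F) (n : GL D.Idx F) : Prop where
  mem : n ∈ (T.tdata h C f).N0
  map : ∀ j, ∀ k ∈ T.orb j, ∃ k' ∈ T.orb j, G.perm n (G.simpleF k) = G.negF (G.simpleF k')

variable {n₀ : GL D.Idx F}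

theorem X1_le_U1 (j : Fin T.m) : (T.tdata h C f).X1 j ≤ tU h C f := fun x hx => by
  obtain ⟨c, hc, rfl⟩ := (T.mem_X1_iff h C f).1 hx
  exact T.pX_mem_U1 h C f hc

theorem nS_mem_G1 (j : Fin T.m) : (T.tdata h C f).nS j ∈ tG h C f :=
  (T.tdata h C f).N0_le_G1 ((T.tdata h C f).nS_mem_N0 j)

theorem mem_tY {j : Fin T.m} {g : GL D.Idx F} :
    g ∈ tY h C f j ↔ ∃ c, T.Sat f j c ∧ g = T.nX G j c := by
  rw [mem_cj, T.mem_X1_iff h C f]
  constructor
  · rintro ⟨c, hc, e⟩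
    refine ⟨fun k => -c k, T.sat_neg h f hc, ?_⟩
    rw [← T.conj_pX c h, ← e, T.tdata_nS]
    group
  · rintro ⟨c, hc, rfl⟩
    refine ⟨fun k => -c k, T.sat_neg h f hc, ?_⟩
    rw [T.nX_eq_conj h c, T.tdata_nS]
    group

theorem tY_le_V (j : Fin T.m) : tY h C f j ≤ tV h C f := fun g hg => by
  refine ⟨?_, cj_le_G1 h C f (nS_mem_G1 h C f j) ((X1_le_U1 h C f j).trans (T.tdata h C f).U1_le_G1) hg⟩
  obtain ⟨c, -, rfl⟩ := (mem_tY h C f).1 hg
  refine Subgroup.list_prod_mem _ fun x hx => ?_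
  obtain ⟨k, -, rfl⟩ := List.mem_map.1 hx
  exact G.xg_mem_neg (G.isNegRoot_neg (G.isPosRoot_simple k.2)) _

theorem tY_ne_bot (j : Fin T.m) : tY h C f j ≠ ⊥ := fun e => by
  obtain ⟨x, hx, hx1⟩ := T.exists_X1_ne_one h C f j
  have hm : (T.tdata h C f).nS j * x * ((T.tdata h C f).nS j)⁻¹ ∈ tY h C f j := Subgroup.mem_map_of_mem _ hx
  rw [e, Subgroup.mem_bot, conj_eq_one_iff] at hm
  exact hx1 hm

theorem V_inf_cj_nS (j : Fin T.m) :
    tV h C f ⊓ cj ((T.tdata h C f).nS j) (tU h C f) = tY h C f j := by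
  refine le_antisymm (fun g ⟨hV, hg⟩ => ?_) (le_inf (tY_le_V h C f j) (Subgroup.map_mono (X1_le_U1 h C f j)))
  set s := (T.tdata h C f).nS j
  obtain ⟨x, hx, u', -, hc, e⟩ := (T.tdata h C f).split_fixed j (mem_cj.1 hg)
  rw [mem_cj, e]
  have h1 : s * u' * s⁻¹ ∈ D.posUnipotent F := by rw [← T.tdata_U h C f]; exact hc.1
  have h2 : s * u' * s⁻¹ ∈ D.negUnipotent F := by
    have hxV : s * x * s⁻¹ ∈ D.negUnipotent F := (tY_le_V h C f j (Subgroup.mem_map_of_mem _ hx)).1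
    have hg' : g ∈ D.negUnipotent F := hV.1
    have hval : s * u' * s⁻¹ = (s * x * s⁻¹)⁻¹ * g := by
      rw [show u' = x⁻¹ * (x * u') by group, ← e]
      group
    rw [hval]
    exact mul_mem (inv_mem hxV) hg'
  have h3 := (Subgroup.eq_bot_iff_forall _).1 G.pos_inf_neg _ ⟨h1, h2⟩
  rw [conj_eq_one_iff] at h3
  rw [h3, mul_one]
  exact hx

theorem H0_le_B1 : (T.tdata h C f).H0 ≤ (T.tdata h C f).B1 := le_sup_right

theorem U1_le_B1 : tU h C f ≤ (T.tdata h C f).B1 := le_sup_left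

theorem cj_nPar_inv (j : Fin T.m) {c : Fin D.rank → F} (hc : T.Sat f j c) (h0 : ∀ k ∈ T.orb j, c k ≠ 0) :
    cj (T.nPar G j c)⁻¹ (tU h C f) = cj ((T.tdata h C f).nS j) (tU h C f) := by
  set s := (T.tdata h C f).nS j with hs
  have hh := T.orb_hg_mem_fixTorus h f j hc h0
  have e : T.nPar G j c = (T.orbProd j fun k : Fin D.rank => G.hg (D.simple k) (c k)) * s := by
    rw [T.orbHg_eq h j, hs, T.tdata_nS]; group
  rw [e, show ((T.orbProd j fun k : Fin D.rank => G.hg (D.simple k) (c k)) * s)⁻¹ =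
    s * ((s * s)⁻¹ * (T.orbProd j fun k : Fin D.rank => G.hg (D.simple k) (c k))⁻¹) by group, cj_mul,
    cj_U1_of_B1 h C f (mul_mem (inv_mem (H0_le_B1 h C f ((T.tdata h C f).nS_sq j)))
      (inv_mem (H0_le_B1 h C f hh)))]

theorem V_inf_cj_X1 (j : Fin T.m) {x : GL D.Idx F} (hx : x ∈ (T.tdata h C f).X1 j) (hx1 : x ≠ 1) :
    tV h C f ⊓ cj x (cj ((T.tdata h C f).nS j) (tU h C f)) = ⊥ := by
  obtain ⟨c, hc, rfl⟩ := (T.mem_X1_iff h C f).1 hx
  have h0 := T.param_ne_zero h f hc hx1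
  rw [← cj_nPar_inv h C f j hc h0, ← cj_mul, T.nPar_eq_gen h j c,
    show T.pX G j c * (T.pX G j c * T.nX G j (fun k => -(c k)⁻¹) * T.pX G j c)⁻¹ =
      (T.nX G j (fun k => -(c k)⁻¹))⁻¹ * (T.pX G j c)⁻¹ by group, cj_mul,
    cj_U1_of_B1 h C f (U1_le_B1 h C f (inv_mem (T.pX_mem_U1 h C f hc)))]
  refine (Subgroup.eq_bot_iff_forall _).2 fun g ⟨hV, hg⟩ => ?_
  replace hg := mem_cj.1 hg
  rw [inv_inv] at hg
  have hd : T.Sat f j fun k => -(c k)⁻¹ := fun k hk => by simp only [hc k hk, map_neg, map_inv₀]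
  have hn : T.nX G j (fun k => -(c k)⁻¹) ∈ D.negUnipotent F :=
    (tY_le_V h C f j ((mem_tY h C f).2 ⟨_, hd, rfl⟩)).1
  have hgV : T.nX G j (fun k => -(c k)⁻¹) * g * (T.nX G j (fun k => -(c k)⁻¹))⁻¹ ∈ D.negUnipotent F :=
    mul_mem (mul_mem hn hV.1) (inv_mem hn)
  have h1 := (Subgroup.eq_bot_iff_forall _).1 G.pos_inf_neg _
    ⟨by rw [← T.tdata_U h C f]; exact hg.1, hgV⟩
  rwa [conj_eq_one_iff] at h1

/-! ### Opposition -/

section opp

variable (hopp : IsOpp h C f n₀)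

include hopp

theorem IsOpp.mem_monomial : n₀ ∈ D.monomialSubgroup F := (T.tdata h C f).N0_le_N hopp.mem

theorem IsOpp.all_neg (s : Fin D.nroots) (hs : D.IsPosRoot s) : D.IsNegRoot (G.perm n₀ s) := by
  refine G.neg_of_simple_neg (IsOpp.mem_monomial h C f hopp) (fun i => ?_) hs
  obtain ⟨j, hj⟩ := h.cover i
  obtain ⟨k', -, e⟩ := hopp.map j i hj
  rw [e]
  exact G.isNegRoot_neg (G.isPosRoot_simple k'.2)

theorem IsOpp.cj_pos : cj n₀ (D.posUnipotent F) = D.negUnipotent F :=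
  G.map_conj_opposition (IsOpp.mem_monomial h C f hopp) (IsOpp.all_neg h C f hopp)

theorem IsOpp.cj_U1 : cj n₀ (tU h C f) = tV h C f := by
  rw [tU, ← T.inf_U_G1 h C f, cj_inf, IsOpp.cj_pos h C f hopp,
    show cj n₀ (T.tdata h C f).G1 = (T.tdata h C f).G1 from cj_G1 h C f ((T.tdata h C f).N0_le_G1 hopp.mem)]

theorem IsOpp.cj_X1_le (j : Fin T.m) : cj n₀ ((T.tdata h C f).X1 j) ≤ tY h C f j := by
  intro g hg
  have hx := mem_cj.1 hg
  have hgG : g ∈ tG h C f :=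
    cj_le_G1 h C f ((T.tdata h C f).N0_le_G1 hopp.mem) ((X1_le_U1 h C f j).trans (T.tdata h C f).U1_le_G1) hg
  refine mem_cj.2 ⟨?_, (T.tdata h C f).G1_le_fixed (mul_mem (mul_mem (inv_mem (nS_mem_G1 h C f j)) hgG)
    (nS_mem_G1 h C f j))⟩
  have hp : T.tdata h C f = T.tdata h C f := rfl
  obtain ⟨c, -, hc⟩ := (T.mem_X1_iff h C f).1 hx
  have hge : g = n₀ * T.pX G j c * n₀⁻¹ := by rw [← hc]; group
  suffices g ∈ cj ((T.tdata h C f).nS j) ((T.tdata h C f).X j) from mem_cj.1 this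
  rw [hge, GraphData.pX, ← MulAut.conj_apply, GraphData.orbProd, map_list_prod, List.map_map]
  refine Subgroup.list_prod_mem _ fun x hx' => ?_
  obtain ⟨k, hk, rfl⟩ := List.mem_map.1 hx'
  obtain ⟨k', hk', e⟩ := hopp.map j k hk
  obtain ⟨u, hu⟩ := G.conj_xg_eq (IsOpp.mem_monomial h C f hopp) (G.simpleF k)
  rw [Function.comp_apply, MulAut.conj_apply,
    show n₀ * G.xg (D.simple k) (c k) * n₀⁻¹ = _ from hu (c k), e]
  refine ⟨G.xg (D.simple k') (-((u : F) * c k)), ?_, ?_⟩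
  · classical
    exact le_iSup₂ (f := fun r (_ : r ∈ (T.orb j).map G.simpleF) => D.rootSubgroup F (r : Fin D.nroots))
      (G.simpleF k') (List.mem_map_of_mem hk') (G.rootSubgroup_mem_iff.2 ⟨_, rfl⟩)
  · show (T.tdata h C f).nS j * _ * ((T.tdata h C f).nS j)⁻¹ = _
    rw [T.tdata_nS, T.nPar_conj_xg h hk', _root_.neg_neg]
    rfl

end opp

variable [Finite F] (hopp : IsOpp h C f n₀) (hopp' : IsOpp h C f n₀⁻¹)

include hopp hopp'

theorem cj_opp_V : cj n₀ (tV h C f) = tU h C f := by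
  rw [← IsOpp.cj_U1 h C f hopp', ← cj_mul, mul_inv_cancel, cj_one]

omit hopp' in
theorem card_cj_X1 (j : Fin T.m) : cj n₀ ((T.tdata h C f).X1 j) = tY h C f j := by
  refine Subgroup.eq_of_le_of_card_ge (IsOpp.cj_X1_le h C f hopp j) ?_
  rw [card_cj, card_cj]

theorem cj_opp_Y (j : Fin T.m) : cj n₀ (tY h C f j) = (T.tdata h C f).X1 j := by
  rw [← card_cj_X1 h C f hopp' j, ← cj_mul, mul_inv_cancel, cj_one]

/-! ### Automorphisms -/

omit hopp hopp' [Finite F] in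
theorem cj_conj_eq {θ : ↥(tG h C f) ≃* ↥(tG h C f)} {K : Subgroup (GL D.Idx F)} (hK : im θ K = K)
    (hKG : K ≤ tG h C f) (g : ↥(tG h C f)) :
    im θ (cj (g : GL D.Idx F) K) = cj ((θ g : ↥(tG h C f)) : GL D.Idx F) K := by
  rw [im_cj θ g hKG, hK]

/-- Every automorphism fixes `U¹` and `V¹` after an inner automorphism. -/
theorem normalise (p : ℕ) [Fact p.Prime] [CharP F p] (θ : ↥(tG h C f) ≃* ↥(tG h C f)) :
    ∃ x : ↥(tG h C f), im (θ.trans (MulAut.conj x)) (tU h C f) = tU h C f ∧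
      im (θ.trans (MulAut.conj x)) (tV h C f) = tV h C f := by
  classical
  obtain ⟨P, hP⟩ := sylow_U1 h C f p
  obtain ⟨P', hP'⟩ : ∃ P' : Sylow p ↥(tG h C f),
      (P' : Subgroup ↥(tG h C f)) = (P : Subgroup ↥(tG h C f)).map θ.toMonoidHom :=
    ⟨P.mapSurjective (f := θ.toMonoidHom) θ.surjective, rfl⟩
  obtain ⟨x₁, hx₁⟩ := MulAction.exists_smul_eq ↥(tG h C f) P' P
  have hU : im (θ.trans (MulAut.conj x₁)) (tU h C f) = tU h C f := by
    rw [im, ← hP, show (θ.trans (MulAut.conj x₁)).toMonoidHom =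
      (MulAut.conj x₁).toMonoidHom.comp θ.toMonoidHom from rfl, ← Subgroup.map_map, ← hP']
    have h2 : (P' : Subgroup ↥(tG h C f)).map (MulAut.conj x₁).toMonoidHom = (P : Subgroup ↥(tG h C f)) := by
      conv_rhs => rw [← hx₁]
      rfl
    rw [h2, hP, Subgroup.map_subgroupOf_eq_of_le (T.tdata h C f).U1_le_G1]
  set θ₁ := θ.trans (MulAut.conj x₁)
  set g₀ : ↥(tG h C f) := ⟨n₀, (T.tdata h C f).N0_le_G1 hopp.mem⟩
  have hV : im θ₁ (tV h C f) = cj ((θ₁ g₀ : ↥(tG h C f)) : GL D.Idx F) (tU h C f) := by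
    rw [← IsOpp.cj_U1 h C f hopp, show n₀ = (g₀ : GL D.Idx F) from rfl,
      cj_conj_eq h C f hU (T.tdata h C f).U1_le_G1]
  have hbot : tU h C f ⊓ cj ((θ₁ g₀ : ↥(tG h C f)) : GL D.Idx F) (tU h C f) = ⊥ := by
    rw [← hV]
    conv_lhs => rw [← hU]
    have : tU h C f ⊓ tV h C f = ⊥ := (Subgroup.eq_bot_iff_forall _).2 fun y hy =>
      (Subgroup.eq_bot_iff_forall _).1 G.pos_inf_neg _ ⟨by rw [← T.tdata_U h C f]; exact hy.1.1, hy.2.1⟩
    rw [← im_inf, this, im_bot]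
  obtain ⟨m, hm, u, hu, k, hk, u', hu', e⟩ := (T.tdata h C f).exists_cell (θ₁ g₀).2
  rw [e, show u * (m * k) * u' = u * (m * (k * u')) by group, cj_mul, cj_mul,
    cj_U1_of_B1 h C f (mul_mem (H0_le_B1 h C f hk) (U1_le_B1 h C f hu'))] at hV hbot
  have hbot' : tU h C f ⊓ cj m (tU h C f) = ⊥ := by
    have h2 := congrArg (cj u⁻¹) hbot
    rwa [cj_inf, cj_U1_of_B1 h C f (U1_le_B1 h C f (inv_mem hu)), ← cj_mul, inv_mul_cancel, cj_one,
      cj_bot] at h2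
  have hmM : m ∈ D.monomialSubgroup F := (T.tdata h C f).N0_le_N hm
  have hmn : m⁻¹ * n₀ ∈ (T.tdata h C f).H0 := by
    refine (T.tdata h C f).N0_inf_H' (mul_mem (inv_mem hm) hopp.mem)
      (G.mem_diagonal_of_pos (mul_mem (inv_mem hmM) (IsOpp.mem_monomial h C f hopp)) fun i => ?_)
    obtain ⟨j, hj⟩ := h.cover i
    obtain ⟨i', hi', ei⟩ := hopp.map j i hj
    rw [G.perm_mul (inv_mem hmM) (IsOpp.mem_monomial h C f hopp), Equiv.Perm.mul_apply, ei,
      G.perm_negF (inv_mem hmM)]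
    refine G.isPosRoot_neg ?_
    rcases perm_sign h C f (inv_mem hm) j with hp | hp
    · exfalso
      refine T.pX_ne_one h (F := F) j ((Subgroup.eq_bot_iff_forall _).1 hbot' _ ⟨T.pX_mem_U1 h C f (T.sat_one h f j),
        mem_cj.2 ?_⟩)
      show m⁻¹ * T.pX G j (fun _ => (1 : F)) * m ∈ tU h C f
      refine ⟨?_, (T.tdata h C f).G1_le_fixed (mul_mem (mul_mem (inv_mem ((T.tdata h C f).N0_le_G1 hm))
        ((T.tdata h C f).U1_le_G1 (T.pX_mem_U1 h C f (T.sat_one h f j)))) ((T.tdata h C f).N0_le_G1 hm))⟩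
      rw [T.tdata_U h C f, show m⁻¹ * T.pX G j (fun _ => (1 : F)) * m =
        MulAut.conj m⁻¹ (T.pX G j (fun _ => (1 : F))) by simp, GraphData.pX, GraphData.orbProd, map_list_prod,
        List.map_map]
      refine Subgroup.list_prod_mem _ fun y hy => ?_
      obtain ⟨a, ha, rfl⟩ := List.mem_map.1 hy
      obtain ⟨c, hc⟩ := G.conj_xg_eq (inv_mem hmM) (G.simpleF a)
      rw [Function.comp_apply, MulAut.conj_apply,
        show m⁻¹ * G.xg (D.simple a) (1 : F) * m⁻¹⁻¹ = _ from hc 1]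
      exact G.xg_mem_pos (hp a ha) _
    · exact hp i' hi'
  have hmV : cj m (tU h C f) = tV h C f := by
    rw [show m = n₀ * (m⁻¹ * n₀)⁻¹ by group, cj_mul, cj_U1_of_B1 h C f (inv_mem (H0_le_B1 h C f hmn)),
      IsOpp.cj_U1 h C f hopp]
  rw [hmV] at hV
  set uG : ↥(tG h C f) := ⟨u, (T.tdata h C f).U1_le_G1 hu⟩
  refine ⟨uG⁻¹ * x₁, ?_, ?_⟩
  all_goals
    rw [show θ.trans (MulAut.conj (uG⁻¹ * x₁)) = θ₁.trans (MulAut.conj uG⁻¹) from by
      ext y; simp [θ₁, mul_assoc], im_trans]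
  · rw [hU, im_conj _ (T.tdata h C f).U1_le_G1]
    exact cj_U1_of_B1 h C f (U1_le_B1 h C f (inv_mem hu))
  · rw [hV, im_conj _ (cj_le_G1 h C f ((T.tdata h C f).U1_le_G1 hu) inf_le_right), ← cj_mul]
    simp [uG, cj_one]

omit hopp hopp' in
/-- An automorphism fixing `U¹` permutes the twisted fundamental reflections modulo `B¹`. -/
theorem exists_reflection_map {θ : ↥(tG h C f) ≃* ↥(tG h C f)} (hU : im θ (tU h C f) = tU h C f) :
    ∀ j : Fin T.m, ∃ k : Fin T.m, ∃ b ∈ (T.tdata h C f).B1, ∃ b' ∈ (T.tdata h C f).B1,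
      ((θ ⟨(T.tdata h C f).nS j, nS_mem_G1 h C f j⟩ : ↥(tG h C f)) : GL D.Idx F) =
        b * (T.tdata h C f).nS k * b' := by
  classical
  set P := T.twistBN h C f with hPdef
  have hPB : P.B = (T.tdata h C f).B1.subgroupOf (tG h C f) := rfl
  have hB : ∀ g : ↥(tG h C f), θ g ∈ P.B ↔ g ∈ P.B := by
    have hBiff : ∀ g : ↥(tG h C f), g ∈ P.B ↔ cj (g : GL D.Idx F) (tU h C f) = tU h C f := fun g =>
      ⟨fun hg => cj_U1_of_B1 h C f hg, fun hg => mem_B1_of_cj_eq h C f g.2 hg⟩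
    intro g
    rw [hBiff, hBiff, ← cj_conj_eq h C f hU (T.tdata h C f).U1_le_G1 g]
    constructor
    · intro e
      have h2 := congrArg (im θ.symm) (e.trans hU.symm)
      rw [← im_trans, ← im_trans, MulEquiv.self_trans_symm] at h2
      have hid : ∀ K : Subgroup (GL D.Idx F), K ≤ tG h C f → im (MulEquiv.refl ↥(tG h C f)) K = K := by
        intro K hK
        ext y
        rw [mem_im]
        exact ⟨fun ⟨z, hz, e⟩ => e ▸ hz, fun hy => ⟨⟨y, hK hy⟩, hy, rfl⟩⟩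
      rwa [hid _ (cj_le_G1 h C f g.2 (T.tdata h C f).U1_le_G1), hid _ (T.tdata h C f).U1_le_G1] at h2
    · intro e
      rw [e, hU]
  let s : Fin T.m → ↥(tG h C f) := fun j => ⟨(T.tdata h C f).nS j, nS_mem_G1 h C f j⟩
  have hsS : ∀ j, s j ∈ P.S := fun j => ⟨j, rfl⟩
  -- the image of a minimal parabolic is a minimal parabolic
  have hpar : ∀ (φ : ↥(tG h C f) ≃* ↥(tG h C f)), (∀ g, φ g ∈ P.B ↔ g ∈ P.B) → ∀ a ∈ P.S,
      ∃ a' ∈ P.S, P.parabolic {a'} ≤ (P.parabolic {a}).map φ.toMonoidHom := by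
    intro φ hφ a ha
    set M := (P.parabolic {a}).map φ.toMonoidHom
    have hM : P.B ≤ M := fun b hb => by
      refine ⟨φ.symm b, Cfsg.Agent.H8.BN.B_le_parabolic _ ((hφ _).1 (by simpa using hb)), by simp⟩
    have he := Cfsg.Agent.H8.BN.eq_parabolic hM
    by_cases hne : (P.S ∩ (M : Set _)).Nonempty
    · obtain ⟨a', ha', haM⟩ := hne
      exact ⟨a', ha', he ▸ Cfsg.Agent.H8.BN.parabolic_mono (Set.singleton_subset_iff.2 ⟨ha', haM⟩)⟩
    · exfalso
      rw [Set.not_nonempty_iff_eq_empty] at hne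
      rw [hne] at he
      have hmem : φ a ∈ M := ⟨a, Cfsg.Agent.H8.BN.subset_parabolic _ rfl, rfl⟩
      rw [he, Cfsg.BNPair.parabolic, Subgroup.closure_empty, sup_bot_eq] at hmem
      exact Cfsg.Agent.H8.BN.s_not_mem_B ha ((hφ a).1 hmem)
  intro j
  have hB' : ∀ g, θ.symm g ∈ P.B ↔ g ∈ P.B := fun g => by
    conv_rhs => rw [← θ.apply_symm_apply g]
    rw [hB]
  obtain ⟨a', ha', hle⟩ := hpar θ hB (s j) (hsS j)
  obtain ⟨a'', ha'', hle'⟩ := hpar θ.symm hB' a' ha'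
  have hsub : P.parabolic {a''} ≤ P.parabolic {s j} := by
    refine hle'.trans ?_
    rintro y ⟨z, hz, rfl⟩
    obtain ⟨w, hw, rfl⟩ := hle hz
    simpa using hw
  have e'' : a'' = s j := (Cfsg.Agent.H8.BN.parabolic_le_iff (Set.singleton_subset_iff.2 ha'')
    (Set.singleton_subset_iff.2 (hsS j))).1 hsub rfl
  subst e''
  obtain ⟨w, hw, hwe⟩ := hle' (Cfsg.Agent.H8.BN.subset_parabolic _ rfl : s j ∈ P.parabolic {s j})
  have hmem : θ (s j) ∈ P.parabolic {a'} := by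
    rw [← hwe]
    simpa using hw
  obtain ⟨l, hl, hcell⟩ := (Cfsg.Agent.H8.BN.mem_parabolic_iff_word (Set.singleton_subset_iff.2 ha')).1 hmem
  have hnB : θ (s j) ∉ P.B := fun hh => Cfsg.Agent.H8.BN.s_not_mem_B (hsS j) ((hB _).1 hh)
  have hlc : Cfsg.Agent.H8.BN.Cong P 1 l.prod ∨ Cfsg.Agent.H8.BN.Cong P a' l.prod := by
    clear hcell
    induction l with
    | nil => exact Or.inl (by simpa using Cfsg.Agent.H8.BN.Cong.refl (P := P) 1)
    | cons a l ih =>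
      have ha : a = a' := hl a List.mem_cons_self
      subst ha
      rw [List.prod_cons]
      rcases ih (fun x hx => hl x (List.mem_cons_of_mem _ hx)) with hc | hc
      · exact Or.inr (by simpa using hc.mul_left a)
      · exact Or.inl ((Cfsg.Agent.H8.BN.cong_mul_self ha').trans (hc.mul_left a))
  rcases hlc with hc | hc
  · exfalso
    rw [← hc.cell_eq, Cfsg.Agent.H8.BN.cell_one] at hcell
    exact hnB hcell
  · rw [← hc.cell_eq] at hcell
    obtain ⟨b, hb, b', hb', e⟩ := Cfsg.Agent.H8.BN.mem_cell.1 hcell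
    obtain ⟨k, hk⟩ := ha'
    refine ⟨k, b, hb, b', hb', ?_⟩
    rw [show ((θ (s j) : ↥(tG h C f)) : GL D.Idx F) = _ from congrArg Subtype.val e, Subgroup.coe_mul,
      Subgroup.coe_mul, hk]

omit hopp hopp' in
/-- An automorphism fixing `U¹` and `V¹` permutes the opposite orbit groups. -/
theorem exists_neg_map {θ : ↥(tG h C f) ≃* ↥(tG h C f)} (hU : im θ (tU h C f) = tU h C f)
    (hV : im θ (tV h C f) = tV h C f) (j : Fin T.m) :
    ∃ k : Fin T.m, im θ (tY h C f j) = tY h C f k := by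
  obtain ⟨k, b, hb, b', hb', e⟩ := exists_reflection_map h C f hU j
  refine ⟨k, ?_⟩
  have h1 : im θ (tY h C f j) = tV h C f ⊓ cj b (cj ((T.tdata h C f).nS k) (tU h C f)) := by
    rw [← V_inf_cj_nS h C f j, im_inf, hV]
    have := cj_conj_eq h C f hU (T.tdata h C f).U1_le_G1 ⟨(T.tdata h C f).nS j, nS_mem_G1 h C f j⟩
    rw [e, cj_mul, cj_mul, cj_U1_of_B1 h C f hb'] at this
    rw [← this]
  obtain ⟨u, hu, t, ht, rfl⟩ := (T.tdata h C f).B1_eq hb
  obtain ⟨x, hx, u', -, hc, rfl⟩ := (T.tdata h C f).split_fixed k hu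
  set s := (T.tdata h C f).nS k with hs
  have h2 : cj (x * u' * t) (cj s (tU h C f)) = cj x (cj s (tU h C f)) := by
    rw [← cj_mul, show x * u' * t * s = x * s * (s⁻¹ * u' * s * (s⁻¹ * t * s)) by group, cj_mul]
    have ht' : s⁻¹ * t * s ∈ (T.tdata h C f).B1 := H0_le_B1 h C f ((T.tdata h C f).H0_conj' k ht)
    have hu'' : s⁻¹ * u' * s ∈ (T.tdata h C f).B1 := by
      have e3 : s⁻¹ * u' * s = (s * s)⁻¹ * (s * u' * s⁻¹) * (s * s) := by group
      rw [e3]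
      have hsq := H0_le_B1 h C f ((T.tdata h C f).nS_sq k)
      exact mul_mem (mul_mem (inv_mem hsq) (U1_le_B1 h C f hc)) hsq
    rw [cj_U1_of_B1 h C f (mul_mem hu'' ht'), cj_mul]
  rw [h2] at h1
  by_cases hx1 : x = 1
  · rw [h1, hx1, cj_one, V_inf_cj_nS]
  · rw [V_inf_cj_X1 h C f k hx hx1,
      im_eq_bot_iff θ ((tY_le_V h C f j).trans inf_le_right)] at h1
    exact absurd h1 (tY_ne_bot h C f j)

/-- An automorphism fixing `U¹` and `V¹` permutes the orbit groups. -/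
theorem exists_pos_map {θ : ↥(tG h C f) ≃* ↥(tG h C f)} (hU : im θ (tU h C f) = tU h C f)
    (hV : im θ (tV h C f) = tV h C f) (j : Fin T.m) :
    ∃ k : Fin T.m, im θ ((T.tdata h C f).X1 j) = (T.tdata h C f).X1 k := by
  set g : ↥(tG h C f) := ⟨n₀, (T.tdata h C f).N0_le_G1 hopp.mem⟩
  set θ' := ((MulAut.conj g⁻¹).trans θ).trans (MulAut.conj g) with hθ'
  have hg' : ((g⁻¹ : ↥(tG h C f)) : GL D.Idx F) = n₀⁻¹ := rfl
  have key : ∀ K : Subgroup (GL D.Idx F), K ≤ tG h C f →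
      im θ' K = cj n₀ (im θ (cj n₀⁻¹ K)) := fun K hK => by
    rw [hθ', im_trans, im_trans, im_conj g⁻¹ hK, im_conj g (im_le θ _), hg']
  have hinvV : cj n₀⁻¹ (tV h C f) = tU h C f := by
    rw [← IsOpp.cj_U1 h C f hopp, ← cj_mul, inv_mul_cancel, cj_one]
  have hU' : im θ' (tU h C f) = tU h C f := by
    rw [key _ (T.tdata h C f).U1_le_G1, IsOpp.cj_U1 h C f hopp', hV, cj_opp_V h C f hopp hopp']
  have hV' : im θ' (tV h C f) = tV h C f := by
    rw [key _ inf_le_right, hinvV, hU, IsOpp.cj_U1 h C f hopp]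
  obtain ⟨k, hk⟩ := exists_neg_map h C f hU' hV' j
  refine ⟨k, ?_⟩
  rw [key _ ((tY_le_V h C f j).trans inf_le_right)] at hk
  have hinv : ∀ i, cj n₀⁻¹ (tY h C f i) = (T.tdata h C f).X1 i := fun i => by
    rw [← card_cj_X1 h C f hopp i, ← cj_mul, inv_mul_cancel, cj_one]
  rw [hinv] at hk
  have h2 := congrArg (cj n₀⁻¹) hk
  rwa [← cj_mul, inv_mul_cancel, cj_one, hinv] at h2

end Cfsg.Agent.H64.Twist
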